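import Cfsg.Agent.L34.Unip
import Cfsg.Agent.Schur.Basic

set_option autoImplicit false

/-!
The 2-part of the kernel of a stem extension of `PSL₃(4)` is generated by two elements of order
dividing four.
-/

namespace CfsgLib.L34

open Matrix Matrix.SpecialLinearGroup
open scoped commutatorElement

variable {F : Type*} [Field F] [Fintype F] {Γ : Type*} [Group Γ]

omit [Field F] [Fintype F] in
theorem comm_mul_left (x x' y : Γ) : ⁅x * x', y⁆ = x * ⁅x', y⁆ * x⁻¹ * ⁅x, y⁆ := by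
  simp only [commutatorElement_def]; group

omit [Field F] [Fintype F] in
theorem comm_mul_right (x y y' : Γ) : ⁅x, y * y'⁆ = ⁅x, y⁆ * (y * ⁅x, y'⁆ * y⁻¹) := by
  simp only [commutatorElement_def]; group

/-- A central extension with a section, and a generator of the units. -/
structure Data (σ : Γ →* P3 F) (L : P3 F → Γ) (w : Fˣ) : Prop where
  sect : ∀ g, σ (L g) = g
  central : σ.ker ≤ Subgroup.center Γ
  h4 : Fintype.card F = 4
  hw : (w : F) ^ 2 = w + 1

variable {σ : Γ →* P3 F} {L : P3 F → Γ} {w : Fˣ} (c : Data σ L w)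
include c

theorem Data.comm_eq {x x' y y' : Γ} (hx : σ x = σ x') (hy : σ y = σ y') : ⁅x, y⁆ = ⁅x', y'⁆ := by
  have hk : ∀ u u' : Γ, σ u = σ u' → ∀ g, g * (u'⁻¹ * u) = (u'⁻¹ * u) * g := fun u u' e g =>
    Subgroup.mem_center_iff.1 (c.central (by
      rw [MonoidHom.mem_ker, map_mul, map_inv, e, inv_mul_cancel])) g
  have h1 : ∀ u k v : Γ, (∀ g, g * k = k * g) → ⁅u * k, v⁆ = ⁅u, v⁆ := fun u k v hkc => by
    rw [commutatorElement_def, commutatorElement_def, mul_assoc u k v, ← hkc v]; group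
  have h2 : ∀ u k v : Γ, (∀ g, g * k = k * g) → ⁅u, v * k⁆ = ⁅u, v⁆ := fun u k v hkc => by
    rw [← commutatorElement_inv (v * k) u, h1 v k u hkc, commutatorElement_inv]
  rw [show x = x' * (x'⁻¹ * x) by group, show y = y' * (y'⁻¹ * y) by group, h1 _ _ _ (hk x x' hx),
    h2 _ _ _ (hk y y' hy)]

theorem Data.cen {z : Γ} (hz : σ z = 1) (g : Γ) : g * z = z * g :=
  Subgroup.mem_center_iff.1 (c.central (MonoidHom.mem_ker.2 hz)) g

theorem Data.comm_ker {x y : Γ} (h : Commute (σ x) (σ y)) : σ ⁅x, y⁆ = 1 := by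
  rw [map_commutatorElement, commutatorElement_eq_one_iff_commute]; exact h

theorem Data.conj_ker {z : Γ} (hz : σ z = 1) (g : Γ) : g * z * g⁻¹ = z := by
  rw [c.cen hz g, mul_inv_cancel_right]

/-- Lifts in one root subgroup commute. -/
theorem Data.root_comm {i j l : Fin 3} (hij : i ≠ j) (hjl : j ≠ l) (hil : i ≠ l) {u v : Γ} {s t : F}
    (hu : σ u = tr i l s) (hv : σ v = tr i l t) : Commute u v := by
  set a := L (tr i j s)
  set b := L (tr j l 1)
  have hab : σ ⁅a, b⁆ = tr i l s := by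
    rw [map_commutatorElement, c.sect, c.sect, tr_triple hij hjl hil, mul_one]
  have ha : σ ⁅a, v⁆ = 1 := c.comm_ker (by rw [c.sect, hv]; exact tr_comm hij hil hil hij.symm _ _)
  have hb : σ ⁅b, v⁆ = 1 := c.comm_ker (by rw [c.sect, hv]; exact tr_comm hjl hil hjl hil.symm _ _)
  have step : ∀ g z y : Γ, g * v * g⁻¹ = z * v → σ y = 1 → g * (y * v) * g⁻¹ = y * z * v :=
    fun g z y hg hy => by
      calc g * (y * v) * g⁻¹ = (g * y * g⁻¹) * (g * v * g⁻¹) := by group
        _ = y * z * v := by rw [c.conj_ker hy, hg, mul_assoc]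
  have e1 : a * v * a⁻¹ = ⁅a, v⁆ * v := by simp only [commutatorElement_def]; group
  have e2 : b * v * b⁻¹ = ⁅b, v⁆ * v := by simp only [commutatorElement_def]; group
  set z := ⁅a, v⁆
  set z' := ⁅b, v⁆
  have hz : σ z⁻¹ = 1 := by rw [map_inv, ha, inv_one]
  have hz' : σ z'⁻¹ = 1 := by rw [map_inv, hb, inv_one]
  have e1' : a⁻¹ * v * a⁻¹⁻¹ = z⁻¹ * v := by
    calc a⁻¹ * v * a⁻¹⁻¹ = a⁻¹ * (z⁻¹ * (z * v)) * a := by group
      _ = a⁻¹ * (z⁻¹ * (a * v * a⁻¹)) * a := by rw [e1]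
      _ = (a⁻¹ * z⁻¹ * a⁻¹⁻¹) * v := by group
      _ = z⁻¹ * v := by rw [c.conj_ker hz]
  have e2' : b⁻¹ * v * b⁻¹⁻¹ = z'⁻¹ * v := by
    calc b⁻¹ * v * b⁻¹⁻¹ = b⁻¹ * (z'⁻¹ * (z' * v)) * b := by group
      _ = b⁻¹ * (z'⁻¹ * (b * v * b⁻¹)) * b := by rw [e2]
      _ = (b⁻¹ * z'⁻¹ * b⁻¹⁻¹) * v := by group
      _ = z'⁻¹ * v := by rw [c.conj_ker hz']
  have h1 : ⁅⁅a, b⁆, v⁆ = 1 := by
    refine commutatorElement_eq_one_iff_mul_comm.2 (mul_inv_eq_iff_eq_mul.1 ?_)
    calc ⁅a, b⁆ * v * ⁅a, b⁆⁻¹ = a * (b * (a⁻¹ * (b⁻¹ * v * b⁻¹⁻¹) * a⁻¹⁻¹) * b⁻¹) * a⁻¹ := by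
          rw [commutatorElement_def]; group
      _ = v := by
        rw [e2', step _ _ _ e1' hz', step _ _ _ e2 (by rw [map_mul, hz', hz, mul_one]),
          step _ _ _ e1 (by rw [map_mul, map_mul, hz', hz, hb, mul_one, mul_one]),
          show z'⁻¹ * z⁻¹ * z' = z⁻¹ by rw [mul_assoc, ← c.cen hb z⁻¹ |>.symm, inv_mul_cancel_left],
          inv_mul_cancel, one_mul]
  rw [← commutatorElement_eq_one_iff_commute, c.comm_eq (x' := ⁅a, b⁆) (y' := v) (hu.trans hab.symm) rfl, h1]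

/-- The canonical lift in a root subgroup. -/
noncomputable def lift (L : P3 F → Γ) (w : Fˣ) (i j : Fin 3) (e : F) (t : F) : Γ :=
  ⁅L (dg w), L (tr i j (e * t))⁆

/-- Lifts of `α`. -/
noncomputable def lA (L : P3 F → Γ) (w : Fˣ) (t : F) : Γ := lift L w 0 1 ((w : F) ^ 2) t

/-- Lifts of `β`. -/
noncomputable def lB (L : P3 F → Γ) (w : Fˣ) (t : F) : Γ := lift L w 1 2 ((w : F) ^ 2) t

/-- Lifts of `α + β`. -/
noncomputable def lC (L : P3 F → Γ) (w : Fˣ) (t : F) : Γ := lift L w 0 2 (w : F) t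

theorem Data.two : (2 : F) = 0 := L34.two c.h4

theorem Data.cube : (w : F) ^ 3 = 1 := by
  linear_combination ((w : F) + 1) * c.hw + (w : F) * c.two

theorem Data.inv_w : (w : F)⁻¹ = (w : F) ^ 2 :=
  inv_eq_of_mul_eq_one_right (by linear_combination c.cube)

theorem Data.dg01 (t : F) : dg w * tr 0 1 t * (dg w)⁻¹ = tr 0 1 ((w : F) ^ 2 * t) := by
  rw [dg_conj c.h4 (by decide)]
  simp only [show (1 : Fin 3) ≠ 0 by decide, if_true, if_false, div_inv_eq_mul]
  congr 1; ring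

theorem Data.dg12 (t : F) : dg w * tr 1 2 t * (dg w)⁻¹ = tr 1 2 ((w : F) ^ 2 * t) := by
  rw [dg_conj c.h4 (by decide)]
  simp only [show (1 : Fin 3) ≠ 0 by decide, show (2 : Fin 3) ≠ 0 by decide, show (2 : Fin 3) ≠ 1 by decide,
    if_true, if_false, div_one, c.inv_w]

theorem Data.dg02 (t : F) : dg w * tr 0 2 t * (dg w)⁻¹ = tr 0 2 ((w : F) * t) := by
  rw [dg_conj c.h4 (by decide)]
  simp only [show (2 : Fin 3) ≠ 0 by decide, show (2 : Fin 3) ≠ 1 by decide, if_true, if_false, div_one]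

theorem Data.lift_props {i j : Fin 3} (hij : i ≠ j) {x e : F}
    (hd : ∀ t : F, dg w * tr i j t * (dg w)⁻¹ = tr i j (x * t)) (he : (x + 1) * e = 1)
    (hroot : ∀ {u v : Γ} {s t : F}, σ u = tr i j s → σ v = tr i j t → Commute u v) :
    (∀ t, σ (lift L w i j e t) = tr i j t) ∧
      (∀ s t, lift L w i j e (s + t) = lift L w i j e s * lift L w i j e t) ∧
      ∀ t, L (dg w) * lift L w i j e t * (L (dg w))⁻¹ = lift L w i j e (x * t) := by
  have hneg : ∀ t : F, (tr i j t)⁻¹ = tr i j t := fun t =>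
    inv_eq_of_mul_eq_one_right (by
      rw [tr_add hij, show t + t = 0 by linear_combination t * c.two, tr_zero hij])
  have hσ : ∀ t, σ (lift L w i j e t) = tr i j t := fun t => by
    rw [lift, map_commutatorElement, c.sect, c.sect, commutatorElement_def, hd, hneg, tr_add hij]
    congr 1
    linear_combination t * he
  refine ⟨hσ, fun s t => ?_, fun t => ?_⟩
  · change ⁅L (dg w), L (tr i j (e * (s + t)))⁆ = _
    rw [c.comm_eq (x' := L (dg w)) (y' := L (tr i j (e * s)) * L (tr i j (e * t))) rfl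
      (by rw [map_mul, c.sect, c.sect, c.sect, tr_add hij, mul_add]), comm_mul_right]
    congr 1
    exact mul_inv_eq_iff_eq_mul.2 (hroot (c.sect _) (hσ t)).eq
  · change L (dg w) * ⁅L (dg w), L (tr i j (e * t))⁆ * (L (dg w))⁻¹ = _
    rw [show L (dg w) * ⁅L (dg w), L (tr i j (e * t))⁆ * (L (dg w))⁻¹ =
      ⁅L (dg w), L (dg w) * L (tr i j (e * t)) * (L (dg w))⁻¹⁆ by simp only [commutatorElement_def]; group]
    refine c.comm_eq rfl ?_
    rw [map_mul, map_mul, map_inv, c.sect, c.sect, c.sect, hd, mul_left_comm]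

theorem Data.root01 {u v : Γ} {s t : F} (hu : σ u = tr 0 1 s) (hv : σ v = tr 0 1 t) : Commute u v :=
  c.root_comm (i := 0) (j := 2) (l := 1) (by decide) (by decide) (by decide) hu hv

theorem Data.root12 {u v : Γ} {s t : F} (hu : σ u = tr 1 2 s) (hv : σ v = tr 1 2 t) : Commute u v :=
  c.root_comm (i := 1) (j := 0) (l := 2) (by decide) (by decide) (by decide) hu hv

theorem Data.root02 {u v : Γ} {s t : F} (hu : σ u = tr 0 2 s) (hv : σ v = tr 0 2 t) : Commute u v :=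
  c.root_comm (i := 0) (j := 1) (l := 2) (by decide) (by decide) (by decide) hu hv

theorem Data.propA : (∀ t, σ (lA L w t) = tr 0 1 t) ∧ (∀ s t, lA L w (s + t) = lA L w s * lA L w t) ∧
    ∀ t, L (dg w) * lA L w t * (L (dg w))⁻¹ = lA L w ((w : F) ^ 2 * t) :=
  c.lift_props (by decide) c.dg01 (by linear_combination (w : F) * c.cube + c.hw + (w : F) * c.two)
    c.root01

theorem Data.propB : (∀ t, σ (lB L w t) = tr 1 2 t) ∧ (∀ s t, lB L w (s + t) = lB L w s * lB L w t) ∧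
    ∀ t, L (dg w) * lB L w t * (L (dg w))⁻¹ = lB L w ((w : F) ^ 2 * t) :=
  c.lift_props (by decide) c.dg12 (by linear_combination (w : F) * c.cube + c.hw + (w : F) * c.two)
    c.root12

theorem Data.propC : (∀ t, σ (lC L w t) = tr 0 2 t) ∧ (∀ s t, lC L w (s + t) = lC L w s * lC L w t) ∧
    ∀ t, L (dg w) * lC L w t * (L (dg w))⁻¹ = lC L w ((w : F) * t) :=
  c.lift_props (by decide) c.dg02 (by linear_combination c.hw + (w : F) * c.two) c.root02

/-- The pairing of `α` with `α + β`. -/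
noncomputable def La (L : P3 F → Γ) (w : Fˣ) (u : F) : Γ := ⁅lA L w 1, lC L w u⁆

/-- The pairing of `β` with `α + β`. -/
noncomputable def Lb (L : P3 F → Γ) (w : Fˣ) (u : F) : Γ := ⁅lB L w 1, lC L w u⁆

theorem Data.pairing {X : F → Γ} {i j : Fin 3} (hij : i ≠ j) (hil : i ≠ 2) (hj0 : j ≠ 0)
    (hX : (∀ t, σ (X t) = tr i j t) ∧ (∀ s t, X (s + t) = X s * X t) ∧
      ∀ t, L (dg w) * X t * (L (dg w))⁻¹ = X ((w : F) ^ 2 * t)) :
    (∀ s t, σ ⁅X s, lC L w t⁆ = 1) ∧ (∀ s t, ⁅X s, lC L w t⁆ = ⁅X 1, lC L w (s * t)⁆) ∧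
      (∀ u v, ⁅X 1, lC L w (u + v)⁆ = ⁅X 1, lC L w u⁆ * ⁅X 1, lC L w v⁆) ∧
      ∀ u, ⁅X 1, lC L w u⁆ * ⁅X 1, lC L w u⁆ = 1 := by
  obtain ⟨hσ, hadd, hconj⟩ := hX
  obtain ⟨hσC, haddC, hconjC⟩ := c.propC
  have hker : ∀ s t, σ ⁅X s, lC L w t⁆ = 1 := fun s t => c.comm_ker (by
    rw [hσ, hσC]; exact tr_comm hij (by decide) hil hj0 _ _)
  have hX0 : X 0 = 1 := by simpa using hadd 0 0
  have hC0 : lC L w 0 = 1 := by simpa using haddC 0 0
  have hinv : ∀ s t, ⁅X ((w : F) ^ 2 * s), lC L w ((w : F) * t)⁆ = ⁅X s, lC L w t⁆ := fun s t => by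
    rw [← hconj, ← hconjC]
    refine Eq.trans ?_ (c.conj_ker (hker s t) (L (dg w)))
    simp only [commutatorElement_def]; group
  have hright : ∀ s u v, ⁅X s, lC L w (u + v)⁆ = ⁅X s, lC L w u⁆ * ⁅X s, lC L w v⁆ := fun s u v => by
    rw [haddC, comm_mul_right, c.conj_ker (hker s v)]
  refine ⟨hker, fun s t => ?_, hright 1, fun u => ?_⟩
  · rcases cases4 c.h4 c.hw s with rfl | rfl | rfl | rfl
    · rw [zero_mul, hX0, hC0, commutatorElement_one_left, commutatorElement_one_right]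
    · rw [one_mul]
    · have h1 := hinv 1 ((w : F) * t)
      have h2 := hinv ((w : F) ^ 2 * 1) ((w : F) * ((w : F) * t))
      rw [h1, show (w : F) ^ 2 * ((w : F) ^ 2 * 1) = (w : F) by linear_combination (w : F) * c.cube,
        show (w : F) * ((w : F) * ((w : F) * t)) = t by linear_combination t * c.cube] at h2
      exact h2
    · have h1 := hinv 1 ((w : F) ^ 2 * t)
      rw [mul_one, show (w : F) * ((w : F) ^ 2 * t) = t by linear_combination t * c.cube] at h1
      exact h1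
  · rw [← hright, show u + u = 0 by linear_combination u * c.two, hC0, commutatorElement_one_right]

theorem Data.pairA :
    (∀ s t, σ ⁅lA L w s, lC L w t⁆ = 1) ∧ (∀ s t, ⁅lA L w s, lC L w t⁆ = ⁅lA L w 1, lC L w (s * t)⁆) ∧
      (∀ u v, ⁅lA L w 1, lC L w (u + v)⁆ = ⁅lA L w 1, lC L w u⁆ * ⁅lA L w 1, lC L w v⁆) ∧
      ∀ u, ⁅lA L w 1, lC L w u⁆ * ⁅lA L w 1, lC L w u⁆ = 1 :=
  c.pairing (X := lA L w) (i := 0) (j := 1) (by decide) (by decide) (by decide) c.propA

theorem Data.pairB :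
    (∀ s t, σ ⁅lB L w s, lC L w t⁆ = 1) ∧ (∀ s t, ⁅lB L w s, lC L w t⁆ = ⁅lB L w 1, lC L w (s * t)⁆) ∧
      (∀ u v, ⁅lB L w 1, lC L w (u + v)⁆ = ⁅lB L w 1, lC L w u⁆ * ⁅lB L w 1, lC L w v⁆) ∧
      ∀ u, ⁅lB L w 1, lC L w u⁆ * ⁅lB L w 1, lC L w u⁆ = 1 :=
  c.pairing (X := lB L w) (i := 1) (j := 2) (by decide) (by decide) (by decide) c.propB

/-- The defect of the commutator relation. -/
noncomputable def kk (L : P3 F → Γ) (w : Fˣ) (s t : F) : Γ := ⁅lA L w s, lB L w t⁆ * lC L w (s * t)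

theorem Data.lC_inv (t : F) : (lC L w t)⁻¹ = lC L w t := by
  have h0 : lC L w 0 = 1 := by simpa using c.propC.2.1 0 0
  exact inv_eq_of_mul_eq_one_right (by
    rw [← c.propC.2.1, show t + t = 0 by linear_combination t * c.two, h0])

theorem Data.lC_sq (t : F) : lC L w t * lC L w t = 1 := by
  have h := inv_mul_cancel (lC L w t)
  rwa [c.lC_inv] at h

theorem Data.kk_comm (s t : F) : ⁅lA L w s, lB L w t⁆ = kk L w s t * lC L w (s * t) := by
  rw [kk, mul_assoc]
  rw [c.lC_sq, mul_one]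

theorem Data.kk_ker (s t : F) : σ (kk L w s t) = 1 := by
  rw [kk, map_mul, map_commutatorElement, c.propA.1, c.propB.1, c.propC.1,
    tr_triple (by decide) (by decide) (by decide), tr_add (by decide),
    show s * t + s * t = 0 by linear_combination (s * t) * c.two, tr_zero (by decide)]

theorem Data.kk_scale (s t : F) : kk L w ((w : F) ^ 2 * s) ((w : F) ^ 2 * t) = kk L w s t := by
  refine Eq.trans ?_ (c.conj_ker (c.kk_ker s t) (L (dg w)))
  rw [kk, ← c.propA.2.2, ← c.propB.2.2,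
    show (w : F) ^ 2 * s * ((w : F) ^ 2 * t) = (w : F) * (s * t) by linear_combination ((w : F) * s * t) * c.cube,
    ← c.propC.2.2, kk]
  simp only [commutatorElement_def]; group

theorem Data.kk_left (s s' t : F) :
    kk L w (s + s') t = kk L w s t * kk L w s' t * La L w (s * (s' * t)) := by
  have hc : ∀ g, g * kk L w s' t = kk L w s' t * g := fun g => c.cen (c.kk_ker s' t) g
  have e1 : lA L w s * lC L w (s' * t) * (lA L w s)⁻¹ = La L w (s * (s' * t)) * lC L w (s' * t) := by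
    rw [La, ← c.pairA.2.1]; simp only [commutatorElement_def]; group
  have hk : ∀ g, g * La L w (s * (s' * t)) = La L w (s * (s' * t)) * g := fun g => c.cen (c.pairA.1 1 _) g
  rw [kk, c.propA.2.1, comm_mul_left, c.kk_comm s' t, c.kk_comm s t, add_mul,
    show lA L w s * (kk L w s' t * lC L w (s' * t)) * (lA L w s)⁻¹ =
      kk L w s' t * (lA L w s * lC L w (s' * t) * (lA L w s)⁻¹) by rw [← mul_assoc (lA L w s), hc]; group,
    e1, c.propC.2.1]
  set k := kk L w s t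
  set k' := kk L w s' t
  set l := La L w (s * (s' * t))
  calc k' * (l * lC L w (s' * t)) * (k * lC L w (s * t)) * (lC L w (s * t) * lC L w (s' * t))
      = k' * (l * (lC L w (s' * t) * k)) * (lC L w (s * t) * lC L w (s * t)) * lC L w (s' * t) := by group
    _ = k' * l * k * (lC L w (s' * t) * lC L w (s' * t)) := by
        rw [(c.cen (c.kk_ker s t) (lC L w (s' * t)) : lC L w (s' * t) * k = k * lC L w (s' * t)),
          c.lC_sq (s * t)]
        simp only [k, mul_one, mul_assoc]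
    _ = k' * (l * k) := by
        rw [c.lC_sq (s' * t)]
        group
    _ = k * k' * l := by rw [← hk k, ← mul_assoc, hc k]

theorem Data.kk_right (s t t' : F) :
    kk L w s (t + t') = kk L w s t * kk L w s t' * Lb L w (t * (s * t')) := by
  have hc : ∀ g, g * kk L w s t' = kk L w s t' * g := fun g => c.cen (c.kk_ker s t') g
  have e1 : lB L w t * lC L w (s * t') * (lB L w t)⁻¹ = Lb L w (t * (s * t')) * lC L w (s * t') := by
    rw [Lb, ← c.pairB.2.1]; simp only [commutatorElement_def]; group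
  have hk : ∀ g, g * Lb L w (t * (s * t')) = Lb L w (t * (s * t')) * g := fun g => c.cen (c.pairB.1 1 _) g
  rw [kk, c.propB.2.1, comm_mul_right, c.kk_comm s t, c.kk_comm s t', mul_add,
    show lB L w t * (kk L w s t' * lC L w (s * t')) * (lB L w t)⁻¹ =
      kk L w s t' * (lB L w t * lC L w (s * t') * (lB L w t)⁻¹) by rw [← mul_assoc (lB L w t), hc]; group,
    e1, c.propC.2.1]
  set k := kk L w s t
  set k' := kk L w s t'
  set l := Lb L w (t * (s * t'))
  have hcomm : lC L w (s * t) * lC L w (s * t') = lC L w (s * t') * lC L w (s * t) :=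
    (c.root02 (c.propC.1 _) (c.propC.1 _)).eq
  calc k * lC L w (s * t) * (k' * (l * lC L w (s * t'))) * (lC L w (s * t) * lC L w (s * t'))
      = k * (lC L w (s * t) * (k' * l)) * lC L w (s * t') * (lC L w (s * t) * lC L w (s * t')) := by group
    _ = k * (k' * l) * ((lC L w (s * t) * lC L w (s * t')) * (lC L w (s * t) * lC L w (s * t'))) := by
        rw [← mul_assoc (lC L w (s * t)), hc, mul_assoc k', hk]; group
    _ = k * (k' * l) := by
        rw [← c.propC.2.1, c.lC_sq, mul_one]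
    _ = k * k' * l := (mul_assoc _ _ _).symm

/-- The subgroup generated by the two defects. -/
def gen2 (L : P3 F → Γ) (w : Fˣ) : Subgroup Γ := Subgroup.closure {kk L w 1 1, kk L w 1 (w : F)}

theorem Data.kk_zero_right (s : F) : kk L w s 0 = 1 := by
  have hB : lB L w 0 = 1 := by simpa using c.propB.2.1 0 0
  have hC : lC L w 0 = 1 := by simpa using c.propC.2.1 0 0
  rw [kk, hB, mul_zero, hC, commutatorElement_one_right, mul_one]

theorem Data.kk_zero_left (t : F) : kk L w 0 t = 1 := by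
  have hA : lA L w 0 = 1 := by simpa using c.propA.2.1 0 0
  have hC : lC L w 0 = 1 := by simpa using c.propC.2.1 0 0
  rw [kk, hA, zero_mul, hC, commutatorElement_one_left, mul_one]

theorem Data.La_sq (s t : F) : La L w (s ^ 2 * t) = kk L w s t * kk L w s t := by
  have h := c.kk_left s s t
  rw [show s + s = 0 by linear_combination s * c.two, c.kk_zero_left,
    show s * (s * t) = s ^ 2 * t by ring] at h
  calc La L w (s ^ 2 * t) = La L w (s ^ 2 * t) * La L w (s ^ 2 * t) * (La L w (s ^ 2 * t))⁻¹ := by group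
    _ = (La L w (s ^ 2 * t))⁻¹ := by rw [La, c.pairA.2.2.2, one_mul]
    _ = kk L w s t * kk L w s t := inv_eq_of_mul_eq_one_left h.symm

theorem Data.Lb_sq (s t : F) : Lb L w (s * t ^ 2) = kk L w s t * kk L w s t := by
  have h := c.kk_right s t t
  rw [show t + t = 0 by linear_combination t * c.two, c.kk_zero_right,
    show t * (s * t) = s * t ^ 2 by ring] at h
  calc Lb L w (s * t ^ 2) = Lb L w (s * t ^ 2) * Lb L w (s * t ^ 2) * (Lb L w (s * t ^ 2))⁻¹ := by group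
    _ = (Lb L w (s * t ^ 2))⁻¹ := by rw [Lb, c.pairB.2.2.2, one_mul]
    _ = kk L w s t * kk L w s t := inv_eq_of_mul_eq_one_left h.symm

theorem Data.La_mem (u : F) : La L w u ∈ gen2 L w := by
  have h1 : kk L w 1 1 ∈ gen2 L w := Subgroup.subset_closure (by simp)
  have hw' : kk L w 1 (w : F) ∈ gen2 L w := Subgroup.subset_closure (by simp)
  have e1 : La L w 1 ∈ gen2 L w := by
    have := c.La_sq 1 1
    rw [one_pow, one_mul] at this
    exact this ▸ mul_mem h1 h1
  have ew : La L w (w : F) ∈ gen2 L w := by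
    have := c.La_sq 1 (w : F)
    rw [one_pow, one_mul] at this
    exact this ▸ mul_mem hw' hw'
  rcases cases4 c.h4 c.hw u with rfl | rfl | rfl | rfl
  · rw [La, show lC L w (0 : F) = 1 by simpa using c.propC.2.1 0 0, commutatorElement_one_right]
    exact one_mem _
  · exact e1
  · exact ew
  · rw [La, c.hw, c.pairA.2.2.1]
    exact mul_mem ew e1

theorem Data.Lb_eq (u : F) : Lb L w u = La L w (u ^ 2) := by
  have h1 := c.Lb_sq 1 (u ^ 2)
  have h2 := c.La_sq 1 (u ^ 2)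
  rw [one_pow, one_mul] at h2
  rw [one_mul, show (u ^ 2) ^ 2 = u by rw [← pow_mul]; exact L34.pow_four c.h4 u] at h1
  rw [h1, h2]

theorem Data.Lb_mem (u : F) : Lb L w u ∈ gen2 L w := c.Lb_eq u ▸ c.La_mem _

theorem Data.kk_mem (s t : F) : kk L w s t ∈ gen2 L w := by
  have h1 : ∀ t, kk L w 1 t ∈ gen2 L w := fun t => by
    rcases cases4 c.h4 c.hw t with rfl | rfl | rfl | rfl
    · rw [c.kk_zero_right]; exact one_mem _
    · exact Subgroup.subset_closure (by simp)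
    · exact Subgroup.subset_closure (by simp)
    · rw [c.hw, c.kk_right]
      exact mul_mem (mul_mem (Subgroup.subset_closure (by simp)) (Subgroup.subset_closure (by simp)))
        (c.Lb_mem _)
  rcases cases4 c.h4 c.hw s with rfl | rfl | rfl | rfl
  · rw [c.kk_zero_left]; exact one_mem _
  · exact h1 t
  · have e1 := c.kk_scale 1 ((w : F) ^ 2 * t)
    have e2 := c.kk_scale ((w : F) ^ 2 * 1) ((w : F) ^ 2 * ((w : F) ^ 2 * t))
    rw [e1, show (w : F) ^ 2 * ((w : F) ^ 2 * 1) = (w : F) by linear_combination (w : F) * c.cube,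
      show (w : F) ^ 2 * ((w : F) ^ 2 * ((w : F) ^ 2 * t)) = t by
        linear_combination t * ((w : F) ^ 3 + 1) * c.cube] at e2
    exact e2 ▸ h1 _
  · have e := c.kk_scale 1 ((w : F) * t)
    rw [mul_one, show (w : F) ^ 2 * ((w : F) * t) = t by linear_combination t * c.cube] at e
    exact e ▸ h1 _

theorem Data.gen2_ker : gen2 L w ≤ σ.ker := by
  rw [gen2, Subgroup.closure_le]
  rintro _ (rfl | rfl) <;> exact c.kk_ker _ _

theorem Data.pairA_mem (s t : F) : ⁅lA L w s, lC L w t⁆ ∈ gen2 L w := by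
  rw [c.pairA.2.1]; exact c.La_mem _

theorem Data.pairB_mem (s t : F) : ⁅lB L w s, lC L w t⁆ ∈ gen2 L w := by
  rw [c.pairB.2.1]; exact c.Lb_mem _

/-- The commutator subgroup of the preimage of the Sylow subgroup lies in this subgroup. -/
def Data.tsub : Subgroup Γ where
  carrier := {g | ∃ u ∈ gen2 L w, ∃ t, g = u * lC L w t}
  one_mem' := ⟨1, one_mem _, 0, by rw [show lC L w (0 : F) = 1 by simpa using c.propC.2.1 0 0, mul_one]⟩
  mul_mem' := by
    rintro _ _ ⟨u, hu, t, rfl⟩ ⟨v, hv, t', rfl⟩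
    refine ⟨u * v, mul_mem hu hv, t + t', ?_⟩
    rw [c.propC.2.1, mul_assoc u, ← mul_assoc (lC L w t), c.cen (c.gen2_ker hv) (lC L w t)]
    group
  inv_mem' := by
    rintro _ ⟨u, hu, t, rfl⟩
    refine ⟨u⁻¹, inv_mem hu, t, ?_⟩
    rw [_root_.mul_inv_rev, c.lC_inv, c.cen (c.gen2_ker (inv_mem hu))]

theorem Data.ker_inf_le : σ.ker ⊓ ⁅(Usub c.h4).comap σ, (Usub c.h4).comap σ⁆ ≤ gen2 L w := by
  let S := (Usub c.h4).comap σ
  let T := c.tsub
  have hMT : gen2 L w ≤ T := fun u hu => ⟨u, hu, 0, by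
    rw [show lC L w (0 : F) = 1 by simpa using c.propC.2.1 0 0, mul_one]⟩
  have hCT : ∀ t, lC L w t ∈ T := fun t => ⟨1, one_mem _, t, (one_mul _).symm⟩
  have hAB : ∀ s t, ⁅lA L w s, lB L w t⁆ ∈ T := fun s t => ⟨_, c.kk_mem s t, _, c.kk_comm s t⟩
  have hdec : ∀ x ∈ S, ∃ z a b t, σ z = 1 ∧ x = z * lA L w a * lB L w b * lC L w t := by
    intro x hx
    obtain ⟨a, b, t, hx⟩ := hx
    refine ⟨x * (lA L w a * lB L w b * lC L w t)⁻¹, a, b, t, ?_, by group⟩
    rw [map_mul, map_inv, map_mul, map_mul, c.propA.1, c.propB.1, c.propC.1, hx, uEl_eq, mul_inv_cancel]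
  -- conjugation preserves `T`
  let N : Subgroup Γ :=
    { carrier := {g | (∀ x ∈ T, g * x * g⁻¹ ∈ T) ∧ ∀ x ∈ T, g⁻¹ * x * g ∈ T}
      one_mem' := ⟨fun x hx => by simpa using hx, fun x hx => by simpa using hx⟩
      mul_mem' := by
        rintro g g' ⟨h1, h2⟩ ⟨h1', h2'⟩
        exact ⟨fun x hx => by simpa [mul_assoc] using h1 _ (h1' x hx),
          fun x hx => by simpa [mul_assoc] using h2' _ (h2 x hx)⟩
      inv_mem' := by
        rintro g ⟨h1, h2⟩
        exact ⟨fun x hx => by simpa using h2 x hx, fun x hx => by simpa using h1 x hx⟩ }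
  have hN : ∀ g : Γ, (∀ t, ⁅g, lC L w t⁆ ∈ gen2 L w) → g ∈ N := by
    intro g hg
    have h1 : ∀ x ∈ T, g * x * g⁻¹ ∈ T := by
      rintro _ ⟨u, hu, t, rfl⟩
      rw [show g * (u * lC L w t) * g⁻¹ = (g * u * g⁻¹) * (⁅g, lC L w t⁆ * lC L w t) by
        simp only [commutatorElement_def]; group, c.conj_ker (c.gen2_ker hu)]
      exact mul_mem (hMT hu) (mul_mem (hMT (hg t)) (hCT t))
    refine ⟨h1, ?_⟩
    rintro _ ⟨u, hu, t, rfl⟩
    rw [show g⁻¹ * (u * lC L w t) * g = (g⁻¹ * u * g⁻¹⁻¹) * ((g⁻¹ * ⁅g, lC L w t⁆⁻¹ * g⁻¹⁻¹) * lC L w t) by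
      simp only [commutatorElement_def]; group, c.conj_ker (c.gen2_ker hu),
      c.conj_ker (c.gen2_ker (inv_mem (hg t)))]
    exact mul_mem (hMT hu) (mul_mem (hMT (inv_mem (hg t))) (hCT t))
  have hNA : ∀ s, lA L w s ∈ N := fun s => hN _ (c.pairA_mem s)
  have hNB : ∀ s, lB L w s ∈ N := fun s => hN _ (c.pairB_mem s)
  have hNC : ∀ s, lC L w s ∈ N := fun s => hN _ fun t => by
    rw [commutatorElement_eq_one_iff_commute.2 (c.root02 (c.propC.1 s) (c.propC.1 t))]; exact one_mem _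
  have hNz : ∀ z, σ z = 1 → z ∈ N := fun z hz => hN _ fun t => by
    rw [commutatorElement_eq_one_iff_commute.2 (show Commute z _ from (c.cen hz _).symm)]; exact one_mem _
  let P : Γ → Γ → Prop := fun x y => ⁅x, y⁆ ∈ T
  have hsymm : ∀ x y, P x y → P y x := fun x y h => by
    change ⁅y, x⁆ ∈ T; rw [← commutatorElement_inv]; exact inv_mem h
  have hmul : ∀ x x' y, x ∈ N → P x y → P x' y → P (x * x') y := fun x x' y hx h h' => by
    change ⁅x * x', y⁆ ∈ T; rw [comm_mul_left]; exact mul_mem (hx.1 _ h') h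
  have hfour : ∀ y, (∀ z, σ z = 1 → P z y) → (∀ a, P (lA L w a) y) → (∀ b, P (lB L w b) y) →
      (∀ t, P (lC L w t) y) → ∀ x ∈ S, P x y := by
    intro y hz hA hB hC x hx
    obtain ⟨z, a, b, t, hz1, rfl⟩ := hdec x hx
    exact hmul _ _ _ (mul_mem (mul_mem (hNz z hz1) (hNA a)) (hNB b))
      (hmul _ _ _ (mul_mem (hNz z hz1) (hNA a)) (hmul _ _ _ (hNz z hz1) (hz z hz1) (hA a)) (hB b)) (hC t)
  have hP1 : ∀ x y : Γ, Commute x y → P x y := fun x y h => by
    change ⁅x, y⁆ ∈ T; rw [commutatorElement_eq_one_iff_commute.2 h]; exact one_mem _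
  have hcz : ∀ z y, σ z = 1 → P z y := fun z y hz => hP1 _ _ (c.cen hz y).symm
  have hxA : ∀ x ∈ S, ∀ a, P x (lA L w a) := fun x hx a => hfour _ (fun z => hcz z _)
    (fun a' => hP1 _ _ (c.root01 (c.propA.1 _) (c.propA.1 _)))
    (fun b => hsymm _ _ (hAB a b))
    (fun t => hsymm _ _ (hMT (c.pairA_mem a t))) x hx
  have hxB : ∀ x ∈ S, ∀ b, P x (lB L w b) := fun x hx b => hfour _ (fun z => hcz z _)
    (fun a => hAB a b)
    (fun b' => hP1 _ _ (c.root12 (c.propB.1 _) (c.propB.1 _)))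
    (fun t => hsymm _ _ (hMT (c.pairB_mem b t))) x hx
  have hxC : ∀ x ∈ S, ∀ t, P x (lC L w t) := fun x hx t => hfour _ (fun z => hcz z _)
    (fun a => hMT (c.pairA_mem a t)) (fun b => hMT (c.pairB_mem b t))
    (fun t' => hP1 _ _ (c.root02 (c.propC.1 _) (c.propC.1 _))) x hx
  have hle : ⁅S, S⁆ ≤ T := Subgroup.commutator_le.2 fun x hx y hy =>
    hsymm _ _ (hfour x (fun z => hcz z x) (fun a => hsymm _ _ (hxA x hx a)) (fun b => hsymm _ _ (hxB x hx b))
      (fun t => hsymm _ _ (hxC x hx t)) y hy)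
  rintro g ⟨hg, hgc⟩
  obtain ⟨u, hu, t, rfl⟩ := hle hgc
  have h1 : σ (u * lC L w t) = 1 := hg
  rw [map_mul, MonoidHom.mem_ker.1 (c.gen2_ker hu), one_mul, c.propC.1] at h1
  have ht : t = 0 := (uEl_injective (a := 0) (b := 0) (c := t) (a' := 0) (b' := 0) (c' := 0) (by
    rw [uEl_eq, uEl_eq, h1, tr_zero (show (0 : Fin 3) ≠ 2 by decide)])).2.2
  subst ht
  rwa [show lC L w (0 : F) = 1 by simpa using c.propC.2.1 0 0, mul_one]

theorem Data.kk_four (s t : F) : kk L w s t ^ 4 = 1 := by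
  rw [show 4 = 2 * 2 by rfl, pow_mul, pow_two, pow_two, ← c.La_sq, La, c.pairA.2.2.2]

end CfsgLib.L34
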