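import Cfsg.Agent.L34.Data

set_option autoImplicit false

/-!
Checks of the coset tables.
-/

namespace CfsgLib.L34.Code

theorem reps_ok : okReps reps = true := by decide +kernel
theorem g011_ok : okTable reps 65797 tblG011 = true := by decide +kernel
theorem g012_ok : okTable reps 65801 tblG012 = true := by decide +kernel
theorem g121_ok : okTable reps 66817 tblG121 = true := by decide +kernel
theorem g122_ok : okTable reps 67841 tblG122 = true := by decide +kernel
theorem g101_ok : okTable reps 65857 tblG101 = true := by decide +kernel
theorem g102_ok : okTable reps 65921 tblG102 = true := by decide +kernel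
theorem g211_ok : okTable reps 82177 tblG211 = true := by decide +kernel
theorem g212_ok : okTable reps 98561 tblG212 = true := by decide +kernel
theorem x1_ok : okTable reps 66837 tblX1 = true := by decide +kernel
theorem y1_ok : okTable reps 67897 tblY1 = true := by decide +kernel
theorem x2_ok : okTable reps 67877 tblX2 = true := by decide +kernel
theorem y2_ok : okTable reps 68889 tblY2 = true := by decide +kernel
theorem pair1_ok : okPair tblX1 tblY1 (3, 2) = true := by decide +kernel
theorem pair2_ok : okPair tblX2 tblY2 (3, 1) = true := by decide +kernel

end CfsgLib.L34.Code
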