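import Mathlib

set_option autoImplicit false

/-!
Arithmetic of the field with four elements on natural numbers below four, and 3 by 3 matrices packed
into numerals.
-/

namespace CfsgLib.L34.Code

/-- The coefficient ring of the cover. -/
abbrev R := ZMod 4 × ZMod 4

/-- Multiplication. -/
def mulC (a b : ℕ) : ℕ := (2625168384 >>> (2 * (4 * a + b))) &&& 3

/-- Teichmüller lift. -/
def tauC : ℕ → R
  | 1 => (1, 0)
  | 2 => (0, 1)
  | 3 => (3, 3)
  | _ => (0, 0)

/-- The cocycle with abstract operations. -/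
def fGen {X : Type*} (mul : X → X → X) (τ : X → R) (b c a' b' : X) : R :=
  -τ (mul a' (mul b b)) + 2 * τ (mul (mul a' a') (mul c c)) + 2 * τ (mul (mul b b') a') + 2 * τ (mul b' c)

/-- The cocycle on codes. -/
def fC (b c a' b' : ℕ) : R := fGen mulC tauC b c a' b'

/-- An entry of a packed matrix. -/
def ent (g k : ℕ) : ℕ := (g >>> (2 * k)) &&& 3

/-- An entry of a product. -/
def dot (g r k : ℕ) : ℕ :=
  mulC (ent g (k / 3 * 3)) (ent r (k % 3)) ^^^ mulC (ent g (k / 3 * 3 + 1)) (ent r (3 + k % 3)) ^^^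
    mulC (ent g (k / 3 * 3 + 2)) (ent r (6 + k % 3))

/-- The determinant. -/
def detC (g : ℕ) : ℕ :=
  mulC (mulC (ent g 0) (ent g 4)) (ent g 8) ^^^ mulC (mulC (ent g 0) (ent g 5)) (ent g 7) ^^^
    mulC (mulC (ent g 1) (ent g 3)) (ent g 8) ^^^ mulC (mulC (ent g 1) (ent g 5)) (ent g 6) ^^^
    mulC (mulC (ent g 2) (ent g 3)) (ent g 7) ^^^ mulC (mulC (ent g 2) (ent g 4)) (ent g 6)

/-- A unipotent matrix. -/
def umat (a b c : ℕ) : ℕ := 65793 + a * 4 + (c ^^^ mulC a b) * 16 + b * 1024

/-- A representative. -/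
def rep (RT i : ℕ) : ℕ := (RT >>> (18 * i)) &&& 262143

/-- A table entry. -/
def entry (tbl i : ℕ) : ℕ := (tbl >>> (17 * i)) &&& 131071

/-- The target of a table entry. -/
def eJ (e : ℕ) : ℕ := e &&& 511

/-- The first coordinate of a table entry. -/
def eA (e : ℕ) : ℕ := (e >>> 9) &&& 3

/-- The second coordinate of a table entry. -/
def eB (e : ℕ) : ℕ := (e >>> 11) &&& 3

/-- The third coordinate of a table entry. -/
def eC (e : ℕ) : ℕ := (e >>> 13) &&& 3

/-- The scalar of a table entry. -/
def eL (e : ℕ) : ℕ := (e >>> 15) &&& 3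

/-- Validity of a table entry. -/
def okEntry (RT g i e : ℕ) : Bool :=
  decide (eJ e < 315) && decide (eL e ≠ 0) &&
    (List.range 9).all fun k =>
      dot g (rep RT i) k == mulC (eL e) (dot (rep RT (eJ e)) (umat (eA e) (eB e) (eC e)) k)

/-- Validity of a table. -/
def okTable (RT g tbl : ℕ) : Bool := (List.range 315).all fun i => okEntry RT g i (entry tbl i)

/-- All representatives have determinant one. -/
def okReps (RT : ℕ) : Bool := (List.range 315).all fun i => detC (rep RT i) == 1

/-- The commutator value at a point, with agreement of the base coordinates. -/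
def pairVal (t t' i : ℕ) : R × Bool :=
  let ey := entry t' i
  let exy := entry t (eJ ey)
  let ex := entry t i
  let eyx := entry t' (eJ ex)
  (fC (eB exy) (eC exy) (eA ey) (eB ey) - fC (eB eyx) (eC eyx) (eA ex) (eB ex),
    (eA exy ^^^ eA ey) == (eA eyx ^^^ eA ex) && (eB exy ^^^ eB ey) == (eB eyx ^^^ eB ex) &&
      (eC exy ^^^ eC ey ^^^ mulC (eA ey) (eB exy)) == (eC eyx ^^^ eC ex ^^^ mulC (eA ex) (eB eyx)))

/-- Validity of a pair, with the given total. -/
def okPair (t t' : ℕ) (total : R) : Bool :=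
  ((List.range 315).all fun i => (pairVal t t' i).2) &&
    ((List.range 315).map fun i => (pairVal t t' i).1).sum == total

end CfsgLib.L34.Code
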