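import Cfsg.Agent.L34.Unip
import Cfsg.Agent.L34.Code

set_option autoImplicit false

/-!
The extension of the Sylow 2-subgroup by `ZMod 4 × ZMod 4`.
-/

namespace CfsgLib.L34

open Code

universe u

variable {F : Type u} [Field F] [Fintype F]

/-- A code as a field element. -/
def ev (w : F) (n : ℕ) : F := (if n % 2 = 1 then 1 else 0) + (if n / 2 % 2 = 1 then w else 0)

variable (h4 : Fintype.card F = 4) {w : F} (hw : w ^ 2 = w + 1)
include h4 hw

theorem ev_add {a b : ℕ} (ha : a < 4) (hb : b < 4) : ev w (a ^^^ b) = ev w a + ev w b := by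
  have h2 := two h4
  interval_cases a <;> interval_cases b <;> simp [ev] <;> grobner

theorem ev_mul {a b : ℕ} (ha : a < 4) (hb : b < 4) : ev w (mulC a b) = ev w a * ev w b := by
  have h2 := two h4
  interval_cases a <;> interval_cases b <;> simp [ev, mulC] <;> grobner

theorem ev_zero : ev w 0 = 0 := by simp [ev]

theorem ev_one : ev w 1 = 1 := by simp [ev]

theorem ev_inj {a b : ℕ} (ha : a < 4) (hb : b < 4) (e : ev w a = ev w b) : a = b := by
  have h2 := two h4
  interval_cases a <;> interval_cases b <;> first | rfl | (exfalso; simp [ev] at e <;> grobner)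

theorem ev_surj (x : F) : ∃ a, a < 4 ∧ ev w a = x := by
  rcases cases4 h4 hw x with rfl | rfl | rfl | rfl
  · exact ⟨0, by norm_num, by simp [ev]⟩
  · exact ⟨1, by norm_num, by simp [ev]⟩
  · exact ⟨2, by norm_num, by simp [ev]⟩
  · exact ⟨3, by norm_num, by simp [ev, hw, add_comm]⟩

/-- The code of a field element. -/
noncomputable def code (x : F) : ℕ := (ev_surj h4 hw x).choose

theorem code_lt (x : F) : code h4 hw x < 4 := (ev_surj h4 hw x).choose_spec.1

theorem ev_code (x : F) : ev w (code h4 hw x) = x := (ev_surj h4 hw x).choose_spec.2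

theorem code_ev {a : ℕ} (ha : a < 4) : code h4 hw (ev w a) = a :=
  ev_inj h4 hw (code_lt h4 hw _) ha (ev_code h4 hw _)

/-- Teichmüller lift on the field. -/
noncomputable def tau (x : F) : R := tauC (code h4 hw x)

theorem tau_ev {a : ℕ} (ha : a < 4) : tau h4 hw (ev w a) = tauC a := by rw [tau, code_ev h4 hw ha]

omit h4 hw in
theorem mulC_lt (a b : ℕ) : mulC a b < 4 := Nat.lt_succ_of_le (Nat.and_le_right)

omit h4 hw in
theorem tauC_add : ∀ a < 4, ∀ b < 4, tauC (a ^^^ b) =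
    tauC a + tauC b + 2 * tauC (mulC (mulC a b) (mulC a b)) := by decide

theorem tau_add (x y z : F) (hz : z = (x * y) ^ 2) :
    tau h4 hw (x + y) = tau h4 hw x + tau h4 hw y + 2 * tau h4 hw z := by
  obtain ⟨a, ha, rfl⟩ := ev_surj h4 hw x
  obtain ⟨b, hb, rfl⟩ := ev_surj h4 hw y
  rw [hz, pow_two, ← ev_add h4 hw ha hb, ← ev_mul h4 hw ha hb, ← ev_mul h4 hw (mulC_lt _ _) (mulC_lt _ _),
    tau_ev h4 hw ha, tau_ev h4 hw hb, tau_ev h4 hw (Nat.xor_lt_two_pow (n := 2) ha hb),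
    tau_ev h4 hw (mulC_lt _ _), tauC_add a ha b hb]

theorem tau2_add (x y : F) : 2 * tau h4 hw (x + y) = 2 * tau h4 hw x + 2 * tau h4 hw y := by
  have h4R : (4 : R) = 0 := by decide
  rw [tau_add h4 hw x y _ rfl]
  linear_combination tau h4 hw ((x * y) ^ 2) * h4R

theorem tau_zero : tau h4 hw 0 = 0 := by
  rw [← ev_zero h4 hw, tau_ev h4 hw (by norm_num)]; rfl

/-- The cocycle. -/
noncomputable def fF (b c a' b' : F) : R := fGen (· * ·) (tau h4 hw) b c a' b'

theorem fF_ev {b c a' b' : ℕ} (hb : b < 4) (hc : c < 4) (ha' : a' < 4) (hb' : b' < 4) :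
    fF h4 hw (ev w b) (ev w c) (ev w a') (ev w b') = fC b c a' b' := by
  simp only [fF, fC, fGen, ← ev_mul h4 hw, tau_ev h4 hw, hb, hc, ha', hb', mulC_lt]

theorem fF_cocycle (a₂ b₁ b₂ b₃ c₁ c₂ a₃ : F) :
    fF h4 hw b₁ c₁ a₂ b₂ + fF h4 hw (b₁ + b₂) (c₁ + c₂ + a₂ * b₁) a₃ b₃ =
      fF h4 hw b₂ c₂ a₃ b₃ + fF h4 hw b₁ c₁ (a₂ + a₃) (b₂ + b₃) := by
  have h2 := two h4
  have h4' := pow_four h4
  have hsq : ∀ x y : F, (x + y) * (x + y) = x * x + y * y := fun x y => by linear_combination x * y * h2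
  simp only [fF, fGen, hsq, mul_add, add_mul]
  simp only [tau2_add h4 hw]
  rw [tau_add h4 hw (a₃ * (b₁ * b₁)) (a₃ * (b₂ * b₂)) (a₃ * b₁ * b₂) (by
      linear_combination -(b₁ ^ 4 * b₂ ^ 4) * h4' a₃ - (a₃ * b₂ ^ 4) * h4' b₁ - (a₃ * b₁) * h4' b₂),
    tau_add h4 hw (a₂ * (b₁ * b₁)) (a₃ * (b₁ * b₁)) (a₃ * a₃ * (a₂ * b₁ * (a₂ * b₁))) (by
      linear_combination -(a₂ ^ 2 * a₃ ^ 2 * (b₁ ^ 4 + b₁)) * h4' b₁)]
  simp only [show b₁ * b₃ * a₂ = b₃ * (a₂ * b₁) by ring, show b₁ * b₂ * a₃ = a₃ * b₁ * b₂ by ring]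
  have h4R : (4 : R) = 0 := by decide
  linear_combination (tau h4 hw (a₃ * a₃ * (a₂ * b₁ * (a₂ * b₁))) - tau h4 hw (a₃ * b₁ * b₂)) * h4R

/-- The extension. -/
@[ext]
structure Ext (h4 : Fintype.card F = 4) {w : F} (hw : w ^ 2 = w + 1) : Type u where
  /-- first coordinate -/
  a : F
  /-- second coordinate -/
  b : F
  /-- third coordinate -/
  c : F
  /-- fibre coordinate -/
  r : ULift.{u} R

omit h4 hw
variable {h4 : Fintype.card F = 4} {hw : w ^ 2 = w + 1}

noncomputable instance : Mul (Ext h4 hw) :=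
  ⟨fun x y => ⟨x.a + y.a, x.b + y.b, x.c + y.c + y.a * x.b,
    ⟨x.r.down + y.r.down + fF h4 hw x.b x.c y.a y.b⟩⟩⟩

instance : One (Ext h4 hw) := ⟨⟨0, 0, 0, ⟨0⟩⟩⟩

noncomputable instance : Inv (Ext h4 hw) :=
  ⟨fun x => ⟨x.a, x.b, x.c + x.a * x.b, ⟨-x.r.down - fF h4 hw x.b (x.c + x.a * x.b) x.a x.b⟩⟩⟩

theorem Ext.mul_def (x y : Ext h4 hw) : x * y = ⟨x.a + y.a, x.b + y.b, x.c + y.c + y.a * x.b,
    ⟨x.r.down + y.r.down + fF h4 hw x.b x.c y.a y.b⟩⟩ := rfl

theorem Ext.one_def : (1 : Ext h4 hw) = ⟨0, 0, 0, ⟨0⟩⟩ := rfl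

theorem Ext.inv_def (x : Ext h4 hw) : x⁻¹ =
    ⟨x.a, x.b, x.c + x.a * x.b, ⟨-x.r.down - fF h4 hw x.b (x.c + x.a * x.b) x.a x.b⟩⟩ := rfl

theorem fF_zero_right (b c : F) : fF h4 hw b c 0 0 = 0 := by simp [fF, fGen, tau_zero]

theorem fF_zero_left (a' b' : F) : fF h4 hw 0 0 a' b' = 0 := by simp [fF, fGen, tau_zero]

noncomputable instance extGroup : Group (Ext h4 hw) :=
  Group.ofLeftAxioms
    (fun x y z => by
      refine Ext.ext ?_ ?_ ?_ ?_
      · simp only [Ext.mul_def]; ring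
      · simp only [Ext.mul_def]; ring
      · simp only [Ext.mul_def]; ring
      · refine ULift.ext _ _ ?_
        simp only [Ext.mul_def]
        linear_combination fF_cocycle h4 hw y.a x.b y.b z.b x.c y.c z.a)
    (fun x => by ext <;> simp [Ext.mul_def, Ext.one_def, fF_zero_left])
    (fun x => by
      have h2 := two h4
      refine Ext.ext ?_ ?_ ?_ ?_
      · simp only [Ext.mul_def, Ext.one_def, Ext.inv_def]; linear_combination x.a * h2
      · simp only [Ext.mul_def, Ext.one_def, Ext.inv_def]; linear_combination x.b * h2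
      · simp only [Ext.mul_def, Ext.one_def, Ext.inv_def]; linear_combination (x.c + x.a * x.b) * h2
      · refine ULift.ext _ _ ?_
        simp only [Ext.mul_def, Ext.one_def, Ext.inv_def]; ring)

instance : Finite (Ext h4 hw) :=
  Finite.of_injective (fun x : Ext h4 hw => (x.a, x.b, x.c, x.r)) fun x y e => by
    simp only [Prod.mk.injEq] at e
    exact Ext.ext e.1 e.2.1 e.2.2.1 e.2.2.2

variable (h4 hw)

/-- The fibre. -/
noncomputable def extIncl : Multiplicative (ULift.{u} R) →* Ext h4 hw :=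
  MonoidHom.mk' (fun t => ⟨0, 0, 0, t.toAdd⟩) fun s t => by
    ext <;> simp [Ext.mul_def, fF_zero_left]

/-- The projection. -/
noncomputable def extProj : Ext h4 hw →* Usub h4 :=
  MonoidHom.mk' (fun x => ⟨uEl x.a x.b x.c, x.a, x.b, x.c, rfl⟩) fun x y =>
    Subtype.ext (uEl_mul h4 _ _ _ _ _ _).symm

/-- The standard section. -/
noncomputable def extSec (x : Usub h4) : Ext h4 hw :=
  ⟨x.2.choose, x.2.choose_spec.choose, x.2.choose_spec.choose_spec.choose, ⟨0⟩⟩

theorem extProj_extSec (x : Usub h4) : extProj h4 hw (extSec h4 hw x) = x :=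
  Subtype.ext x.2.choose_spec.choose_spec.choose_spec.symm

theorem extSec_eq {x : Usub h4} {a b c : F} (e : (x : P3 F) = uEl a b c) :
    extSec h4 hw x = ⟨a, b, c, ⟨0⟩⟩ := by
  obtain ⟨h1, h2, h3⟩ := uEl_injective (e.symm.trans x.2.choose_spec.choose_spec.choose_spec)
  subst h1 h2 h3; rfl

theorem extIncl_injective : Function.Injective (extIncl h4 hw) := fun s t e =>
  Multiplicative.toAdd.injective (congrArg Ext.r e)

theorem extProj_extIncl (t : Multiplicative (ULift.{u} R)) : extProj h4 hw (extIncl h4 hw t) = 1 :=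
  Subtype.ext (uEl_zero h4)

theorem extIncl_central (t : Multiplicative (ULift.{u} R)) (y : Ext h4 hw) :
    y * extIncl h4 hw t = extIncl h4 hw t * y := by
  ext <;> simp [extIncl, Ext.mul_def, fF_zero_left, fF_zero_right, add_comm]

theorem exists_extIncl (x : Ext h4 hw) (hx : extProj h4 hw x = 1) : ∃ t, extIncl h4 hw t = x := by
  obtain ⟨e1, e2, e3⟩ := uEl_injective ((congrArg Subtype.val hx).trans (uEl_zero h4).symm)
  exact ⟨Multiplicative.ofAdd x.r, Ext.ext e1.symm e2.symm e3.symm rfl⟩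

end CfsgLib.L34
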