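import Cfsg.Agent.L34.Cert
import Cfsg.Agent.L34.Ext
import Cfsg.Agent.SchurSylow.Monomial

set_option autoImplicit false

/-!
A cover of `PSL₃(4)` whose kernel contains `ZMod 4 × ZMod 4`.
-/

namespace CfsgLib.L34

open scoped commutatorElement
open Code Matrix Matrix.SpecialLinearGroup CfsgLib.Schur CfsgLib.SchurSylow CfsgLib.Schur.SLMult

universe u

variable {F : Type u} [Field F] [Fintype F] (h4 : Fintype.card F = 4) {w : F} (hw : w ^ 2 = w + 1)

/-- The matrix of a code. -/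
def toM (w : F) (g : ℕ) : Matrix (Fin 3) (Fin 3) F := Matrix.of fun i j => ev w (ent g (3 * i.val + j.val))

theorem eA_lt (e : ℕ) : eA e < 4 := Nat.lt_succ_of_le Nat.and_le_right

theorem eB_lt (e : ℕ) : eB e < 4 := Nat.lt_succ_of_le Nat.and_le_right

theorem eC_lt (e : ℕ) : eC e < 4 := Nat.lt_succ_of_le Nat.and_le_right

theorem eL_lt (e : ℕ) : eL e < 4 := Nat.lt_succ_of_le Nat.and_le_right

theorem ent_lt (g k : ℕ) : ent g k < 4 := Nat.lt_succ_of_le (Nat.and_le_right)

include h4 hw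

theorem dot_spec (g r : ℕ) (i j : Fin 3) :
    (toM w g * toM w r) i j = ev w (dot g r (3 * i.val + j.val)) ∧ dot g r (3 * i.val + j.val) < 4 := by
  have hlt : ∀ a b : ℕ, a < 4 → b < 4 → a ^^^ b < 4 := fun a b => Nat.xor_lt_two_pow (n := 2)
  refine ⟨?_, hlt _ _ (hlt _ _ (mulC_lt _ _) (mulC_lt _ _)) (mulC_lt _ _)⟩
  rw [Matrix.mul_apply, Fin.sum_univ_three, dot,
    ev_add h4 hw (hlt _ _ (mulC_lt _ _) (mulC_lt _ _)) (mulC_lt _ _),
    ev_add h4 hw (mulC_lt _ _) (mulC_lt _ _), ev_mul h4 hw (ent_lt _ _) (ent_lt _ _),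
    ev_mul h4 hw (ent_lt _ _) (ent_lt _ _), ev_mul h4 hw (ent_lt _ _) (ent_lt _ _)]
  fin_cases i <;> fin_cases j <;> rfl

theorem det_spec (g : ℕ) : (toM w g).det = ev w (detC g) := by
  have hlt : ∀ a b : ℕ, a < 4 → b < 4 → a ^^^ b < 4 := fun a b => Nat.xor_lt_two_pow (n := 2)
  have h6 : ∀ p q r s t v : ℕ, p < 4 → q < 4 → r < 4 → s < 4 → t < 4 → v < 4 →
      ev w (p ^^^ q ^^^ r ^^^ s ^^^ t ^^^ v) = ev w p + ev w q + ev w r + ev w s + ev w t + ev w v := by
    intro p q r s t v hp hq hr hs ht hv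
    rw [ev_add h4 hw (hlt _ _ (hlt _ _ (hlt _ _ (hlt _ _ hp hq) hr) hs) ht) hv,
      ev_add h4 hw (hlt _ _ (hlt _ _ (hlt _ _ hp hq) hr) hs) ht,
      ev_add h4 hw (hlt _ _ (hlt _ _ hp hq) hr) hs, ev_add h4 hw (hlt _ _ hp hq) hr, ev_add h4 hw hp hq]
  have h3 : ∀ a b c : ℕ, a < 4 → b < 4 → c < 4 → ev w (mulC (mulC a b) c) = ev w a * ev w b * ev w c := by
    intro a b c ha hb hc
    rw [ev_mul h4 hw (mulC_lt _ _) hc, ev_mul h4 hw ha hb]
  rw [detC, h6 _ _ _ _ _ _ (mulC_lt _ _) (mulC_lt _ _) (mulC_lt _ _) (mulC_lt _ _) (mulC_lt _ _) (mulC_lt _ _)]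
  simp only [h3 _ _ _ (ent_lt _ _) (ent_lt _ _) (ent_lt _ _), Matrix.det_fin_three, toM, Matrix.of_apply]
  have h2 := two h4
  norm_num
  linear_combination -(ev w (ent g 0) * ev w (ent g 5) * ev w (ent g 7) +
    ev w (ent g 1) * ev w (ent g 3) * ev w (ent g 8) + ev w (ent g 2) * ev w (ent g 4) * ev w (ent g 6)) * h2

/-- The element of the projective group of a code with determinant one. -/
def el (g : ℕ) (hg : detC g = 1) : P3 F :=
  QuotientGroup.mk (⟨toM w g, by rw [det_spec h4 hw, hg]; exact ev_one h4 hw⟩ : SpecialLinearGroup (Fin 3) F)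

theorem toM_umat {a b c : ℕ} (ha : a < 4) (hb : b < 4) (hc : c < 4) :
    toM w (umat a b c) = !![1, ev w a, ev w c + ev w a * ev w b; 0, 1, ev w b; 0, 0, 1] := by
  have hm := mulC_lt a b
  have key : ∀ a < 4, ∀ b < 4, ∀ d < 4, ∀ k < 9, ent (65793 + a * 4 + d * 16 + b * 1024) k =
      [1, a, d, 0, 1, b, 0, 0, 1].getD k 0 := by decide +kernel
  have hk := key a ha b hb _ (Nat.xor_lt_two_pow (n := 2) hc hm)
  rw [← ev_mul h4 hw ha hb, ← ev_add h4 hw hc hm]
  ext i j
  simp only [toM, Matrix.of_apply, umat]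
  rw [hk _ (by omega)]
  fin_cases i <;> fin_cases j <;> simp [ev_zero h4 hw, ev_one h4 hw]

theorem psl_eq {A B : SpecialLinearGroup (Fin 3) F} {l : F} (hl : l ≠ 0)
    (e : (A : Matrix (Fin 3) (Fin 3) F) = l • (B : Matrix (Fin 3) (Fin 3) F)) :
    (QuotientGroup.mk A : P3 F) = QuotientGroup.mk B := by
  refine (QuotientGroup.eq.2 (mem_center_iff.2 ⟨l, ?_, ?_⟩)).symm
  · rw [Fintype.card_fin]
    have h1 := A.det_coe
    rw [e, Matrix.det_smul, B.det_coe, mul_one, Fintype.card_fin] at h1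
    exact h1
  · rw [coe_mul, e, Matrix.mul_smul, ← coe_mul, inv_mul_cancel, coe_one,
      Matrix.scalar_apply, Matrix.smul_one_eq_diagonal]

theorem entry_spec {RT g i e : ℕ} (hg : detC g = 1) (hi : detC (rep RT i) = 1)
    (hj : detC (rep RT (eJ e)) = 1) (ok : okEntry RT g i e = true) :
    el h4 hw g hg * el h4 hw (rep RT i) hi =
      el h4 hw (rep RT (eJ e)) hj * uEl (ev w (eA e)) (ev w (eB e)) (ev w (eC e)) := by
  simp only [okEntry, Bool.and_eq_true, decide_eq_true_eq, List.all_eq_true, List.mem_range, beq_iff_eq] at ok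
  obtain ⟨⟨-, hl⟩, hk⟩ := ok
  simp only [el, uEl, ← QuotientGroup.mk_mul]
  refine psl_eq h4 hw (l := ev w (eL e)) (fun h0 => hl (ev_inj h4 hw (eL_lt _) (by norm_num) (h0.trans (ev_zero h4 hw).symm))) ?_
  change toM w g * toM w (rep RT i) =
    ev w (eL e) • (toM w (rep RT (eJ e)) * (uS (ev w (eA e)) (ev w (eB e)) (ev w (eC e)) : Matrix (Fin 3) (Fin 3) F))
  rw [coe_uS, ← toM_umat h4 hw (eA_lt _) (eB_lt _) (eC_lt _)]
  ext p q
  obtain ⟨h1, -⟩ := dot_spec h4 hw g (rep RT i) p q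
  obtain ⟨h2, h2'⟩ := dot_spec h4 hw (rep RT (eJ e)) (umat (eA e) (eB e) (eC e)) p q
  rw [Matrix.smul_apply, smul_eq_mul]
  change (toM w g * toM w (rep RT i)) p q = ev w (eL e) * (toM w (rep RT (eJ e)) * toM w (umat _ _ _)) p q
  rw [h1, h2, hk _ (by omega), ev_mul h4 hw (a := eL e) (eL_lt _) h2']

omit h4 hw in
theorem rep_det (i : Fin 315) : detC (rep reps i) = 1 := by
  have h := reps_ok
  simp only [okReps, List.all_eq_true, List.mem_range, beq_iff_eq] at h
  exact h i i.2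

/-- The representatives. -/
def rP (i : Fin 315) : P3 F := el h4 hw (rep reps i) (rep_det i)

omit h4 hw in
/-- The permutation of a table. -/
def piT (tbl : ℕ) (hok : ∀ i : Fin 315, eJ (entry tbl i) < 315) (i : Fin 315) : Fin 315 :=
  ⟨eJ (entry tbl i), hok i⟩

omit h4 hw in
theorem table_lt {g tbl : ℕ} (ok : okTable reps g tbl = true) (i : Fin 315) : eJ (entry tbl i) < 315 := by
  simp only [okTable, okEntry, List.all_eq_true, List.mem_range, Bool.and_eq_true, decide_eq_true_eq] at ok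
  exact (ok i i.2).1.1

omit hw in
/-- The unipotent part of a table. -/
def uT (w : F) (tbl : ℕ) (i : Fin 315) : Usub h4 :=
  ⟨uEl (ev w (eA (entry tbl i))) (ev w (eB (entry tbl i))) (ev w (eC (entry tbl i))), _, _, _, rfl⟩

theorem table_spec {g tbl : ℕ} (hg : detC g = 1) (ok : okTable reps g tbl = true) (i : Fin 315) :
    el h4 hw g hg * rP h4 hw i = rP h4 hw (piT tbl (table_lt ok) i) * (uT h4 w tbl i : P3 F) := by
  have hok := ok
  simp only [okTable, List.all_eq_true, List.mem_range] at hok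
  exact entry_spec h4 hw hg (rep_det i) (rep_det (piT tbl (table_lt ok) i)) (hok i i.2)

theorem el_tr {g : ℕ} (hg : detC g = 1) {i j : Fin 3} (hij : i ≠ j) (t : ℕ)
    (e : ∀ k < 9, ent g k = if k / 3 = k % 3 then 1 else if k = 3 * i.val + j.val then t else 0) :
    el h4 hw g hg = tr i j (ev w t) := by
  rw [el, tr]
  refine congrArg _ (Subtype.ext ?_)
  rw [T, dif_neg hij]
  ext p q
  change toM w g p q = Matrix.transvection i j (ev w t) p q
  rw [toM, Matrix.of_apply, e _ (by omega)]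
  fin_cases i <;> fin_cases j <;> first | (exfalso; exact hij rfl) |
    (fin_cases p <;> fin_cases q <;>
      simp [Matrix.transvection, Matrix.single, Matrix.one_apply, ev_zero h4 hw, ev_one h4 hw])

theorem reps_bijective :
    Function.Bijective fun i : Fin 315 => ((rP h4 hw i : P3 F) : P3 F ⧸ Usub h4) := by
  classical
  set f : Fin 315 → P3 F ⧸ Usub h4 := fun i => (rP h4 hw i : P3 F)
  haveI : Finite (P3 F) := inferInstance
  let N : Submonoid (P3 F) :=
    { carrier := {g | ∀ i, ∃ j, g • f i = f j}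
      one_mem' := fun i => ⟨i, one_smul _ _⟩
      mul_mem' := by
        intro g g' hg hg' i
        obtain ⟨j, hj⟩ := hg' i
        obtain ⟨k, hk⟩ := hg j
        exact ⟨k, by rw [mul_smul, hj, hk]⟩ }
  let N' : Subgroup (P3 F) :=
    { N with
      inv_mem' := fun {g} hg => by
        have h1 : g ^ (orderOf g - 1) = g⁻¹ := by
          refine eq_inv_of_mul_eq_one_left ?_
          rw [← pow_succ, Nat.sub_add_cancel (orderOf_pos g), pow_orderOf_eq_one]
        exact h1 ▸ (Submonoid.pow_mem N hg _ : g ^ (orderOf g - 1) ∈ N) }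
  have htab : ∀ {g tbl : ℕ} (hg : detC g = 1), okTable reps g tbl = true → el h4 hw g hg ∈ N' :=
    fun {g tbl} hg ok i => ⟨piT tbl (table_lt ok) i, by
      simp only [f, MulAction.Quotient.smul_coe, smul_eq_mul, table_spec h4 hw hg ok]
      exact QuotientGroup.mk_mul_of_mem _ (uT h4 w tbl i).2⟩
  have hall : ∀ (i j : Fin 3), i ≠ j → tr i j (ev w 1) ∈ N' → tr i j (ev w 2) ∈ N' → ∀ t, tr i j t ∈ N' := by
    intro i j hij h1 h2 t
    rcases cases4 h4 hw t with rfl | rfl | rfl | rfl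
    · rw [tr_zero hij]; exact one_mem N'
    · simpa [ev] using h1
    · simpa [ev] using h2
    · have := mul_mem h2 h1
      rw [tr_add hij] at this
      simpa [ev, hw] using this
  have h01 : ∀ t, tr 0 1 t ∈ N' := hall 0 1 (by decide)
    (el_tr h4 hw (g := 65797) (by decide) (i := 0) (j := 1) (by decide) 1 (by decide) ▸ htab (by decide) g011_ok)
    (el_tr h4 hw (g := 65801) (by decide) (i := 0) (j := 1) (by decide) 2 (by decide) ▸ htab (by decide) g012_ok)
  have h12 : ∀ t, tr 1 2 t ∈ N' := hall 1 2 (by decide)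
    (el_tr h4 hw (g := 66817) (by decide) (i := 1) (j := 2) (by decide) 1 (by decide) ▸ htab (by decide) g121_ok)
    (el_tr h4 hw (g := 67841) (by decide) (i := 1) (j := 2) (by decide) 2 (by decide) ▸ htab (by decide) g122_ok)
  have h10 : ∀ t, tr 1 0 t ∈ N' := hall 1 0 (by decide)
    (el_tr h4 hw (g := 65857) (by decide) (i := 1) (j := 0) (by decide) 1 (by decide) ▸ htab (by decide) g101_ok)
    (el_tr h4 hw (g := 65921) (by decide) (i := 1) (j := 0) (by decide) 2 (by decide) ▸ htab (by decide) g102_ok)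
  have h21 : ∀ t, tr 2 1 t ∈ N' := hall 2 1 (by decide)
    (el_tr h4 hw (g := 82177) (by decide) (i := 2) (j := 1) (by decide) 1 (by decide) ▸ htab (by decide) g211_ok)
    (el_tr h4 hw (g := 98561) (by decide) (i := 2) (j := 1) (by decide) 2 (by decide) ▸ htab (by decide) g212_ok)
  have hcomm : ∀ g g' : P3 F, g ∈ N' → g' ∈ N' → ⁅g, g'⁆ ∈ N' := fun g g' hg hg' => by
    rw [commutatorElement_def]; exact mul_mem (mul_mem (mul_mem hg hg') (inv_mem hg)) (inv_mem hg')
  have htr : ∀ (i j : Fin 3), i ≠ j → ∀ t, tr i j t ∈ N' := by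
    intro i j hij t
    fin_cases i <;> fin_cases j <;> first | exact absurd rfl hij | skip
    · exact h01 t
    · rw [← mul_one t]; exact tr_triple (i := (0 : Fin 3)) (j := 1) (l := 2) (by decide) (by decide) (by decide) t 1 ▸
        hcomm _ _ (h01 t) (h12 1)
    · exact h10 t
    · exact h12 t
    · rw [← mul_one t]; exact tr_triple (i := (2 : Fin 3)) (j := 1) (l := 0) (by decide) (by decide) (by decide) t 1 ▸
        hcomm _ _ (h21 t) (h10 1)
    · exact h21 t
  have htop : N' = ⊤ := by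
    refine eq_top_iff.2 fun g _ => ?_
    obtain ⟨s, rfl⟩ := QuotientGroup.mk_surjective g
    have hS : Subgroup.comap (QuotientGroup.mk' _) N' = (⊤ : Subgroup (SpecialLinearGroup (Fin 3) F)) :=
      CfsgLib.SLn.eq_top_of_transvection _ fun i j hij c => by
        have h := htr i j hij c
        rw [tr, T, dif_neg hij] at h
        exact h
    have h1 : s ∈ Subgroup.comap (QuotientGroup.mk' _) N' := hS ▸ Subgroup.mem_top s
    exact h1
  haveI := Fintype.ofFinite (P3 F ⧸ Usub h4)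
  refine (Fintype.bijective_iff_surjective_and_card f).2 ⟨fun q => ?_, ?_⟩
  · obtain ⟨g, rfl⟩ := QuotientGroup.mk_surjective q
    have hg : g * (rP h4 hw 0)⁻¹ ∈ N' := htop ▸ Subgroup.mem_top _
    obtain ⟨j, hj⟩ := hg 0
    refine ⟨j, hj.symm.trans ?_⟩
    simp only [f, MulAction.Quotient.smul_coe, smul_eq_mul, inv_mul_cancel_right]
  · rw [Fintype.card_fin, ← Nat.card_eq_fintype_card, ← Subgroup.index_eq_card, index_Usub h4]

theorem el_uEl {g : ℕ} (hg : detC g = 1) {a b c : ℕ} (ha : a < 4) (hb : b < 4) (hc : c < 4)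
    (e : g = umat a b c) : el h4 hw g hg = uEl (ev w a) (ev w b) (ev w c) := by
  subst e
  exact congrArg _ (Subtype.ext (by rw [coe_uS]; exact toM_umat h4 hw ha hb hc))

theorem pair_total {g g' tbl tbl' : ℕ} {total : R} (hg : detC g = 1) (hg' : detC g' = 1)
    (ok : okTable reps g tbl = true) (ok' : okTable reps g' tbl' = true)
    (okp : okPair tbl tbl' total = true) (hcomm : el h4 hw g hg * el h4 hw g' hg' = el h4 hw g' hg' * el h4 hw g hg)
    [Fintype (P3 F ⧸ Usub h4)] :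
    ∃ (A B : IndGrp (extProj h4 hw)) (T : P3 F ⧸ Usub h4 → Multiplicative (ULift.{u} R)),
      A * B = B * A * indKer (extProj h4 hw) (extIncl h4 hw) (extProj_extIncl h4 hw) T ∧
        ∏ i, T i = Multiplicative.ofAdd ⟨total⟩ := by
  simp only [okPair, Bool.and_eq_true, List.all_eq_true, List.mem_range, beq_iff_eq] at okp
  obtain ⟨hbase, hsum⟩ := okp
  obtain ⟨A, B, T, hAB, hprod⟩ := exists_pair_reps (extProj h4 hw) (extSec h4 hw) (extProj_extSec h4 hw)
    (extIncl h4 hw) (extProj_extIncl h4 hw) (extIncl_injective h4 hw) (extIncl_central h4 hw)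
    (exists_extIncl h4 hw) (rP h4 hw) (reps_bijective h4 hw) _ _ hcomm
    (piT tbl (table_lt ok)) (piT tbl' (table_lt ok')) (uT h4 w tbl) (uT h4 w tbl')
    (table_spec h4 hw hg ok) (table_spec h4 hw hg' ok')
    (fun i => Multiplicative.ofAdd ⟨(pairVal tbl tbl' i).1⟩) (fun i => by
      have hb := hbase i i.2
      simp only [pairVal, Bool.and_eq_true, beq_iff_eq] at hb ⊢
      obtain ⟨⟨h1, h2⟩, h3⟩ := hb
      rw [extSec_eq h4 hw (x := uT h4 w tbl (piT tbl' (table_lt ok') i)) rfl,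
        extSec_eq h4 hw (x := uT h4 w tbl' i) rfl,
        extSec_eq h4 hw (x := uT h4 w tbl' (piT tbl (table_lt ok) i)) rfl,
        extSec_eq h4 hw (x := uT h4 w tbl i) rfl]
      simp only [piT, extIncl, MonoidHom.mk'_apply, toAdd_ofAdd, Ext.mul_def, fF_zero_right, add_zero, zero_add,
        zero_mul]
      have ex : ∀ {a b : ℕ}, a < 4 → b < 4 → ev w a + ev w b = ev w (a ^^^ b) := fun ha hb => (ev_add h4 hw ha hb).symm
      have x4 : ∀ {a b : ℕ}, a < 4 → b < 4 → a ^^^ b < 4 := fun ha hb => Nat.xor_lt_two_pow (n := 2) ha hb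
      refine Ext.ext ?_ ?_ ?_ (ULift.ext _ _ ?_)
      · rw [ex (eA_lt _) (eA_lt _), ex (eA_lt _) (eA_lt _)]; exact congrArg (ev w) h1
      · rw [ex (eB_lt _) (eB_lt _), ex (eB_lt _) (eB_lt _)]; exact congrArg (ev w) h2
      · rw [← ev_mul h4 hw (eA_lt _) (eB_lt _), ← ev_mul h4 hw (eA_lt _) (eB_lt _),
          ex (eC_lt _) (eC_lt _), ex (eC_lt _) (eC_lt _), ex (x4 (eC_lt _) (eC_lt _)) (mulC_lt _ _),
          ex (x4 (eC_lt _) (eC_lt _)) (mulC_lt _ _)]
        exact congrArg (ev w) h3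
      · rw [fF_ev h4 hw (eB_lt _) (eC_lt _) (eA_lt _) (eB_lt _),
          fF_ev h4 hw (eB_lt _) (eC_lt _) (eA_lt _) (eB_lt _)]
        rw [add_sub_cancel])
  refine ⟨A, B, T, hAB, hprod.trans ?_⟩
  rw [← ofAdd_sum]
  refine congrArg _ (ULift.ext _ _ ?_)
  have h1 : ∀ s : Finset (Fin 315), (∑ i ∈ s, (⟨(pairVal tbl tbl' i).1⟩ : ULift.{u} R)).down =
      ∑ i ∈ s, (pairVal tbl tbl' i).1 := fun s => map_sum (AddEquiv.ulift : ULift.{u} R ≃+ R) _ s
  rw [h1, ← hsum, Fin.sum_univ_eq_sum_range (fun i => (pairVal tbl tbl' i).1) 315]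
  rfl

omit h4 hw in
theorem gen_pair : ∀ x : R, ∃ i : Fin 4, ∃ j : Fin 4, x = i.val • ((3, 2) : R) + j.val • ((3, 1) : R) := by
  decide +kernel

theorem exists_two_cover : ∃ (Γ : Type u) (_ : Group Γ) (_ : Finite Γ) (σ : Γ →* P3 F),
    Cfsg.IsStemExtension σ ∧ 16 ∣ Nat.card σ.ker := by
  classical
  haveI := Fintype.ofFinite (P3 F ⧸ Usub h4)
  obtain ⟨Γ₀, _, _, φ, inc, hφs, hφc, hinj, hcom⟩ := exists_induced (extProj h4 hw)
    (fun x => ⟨_, extProj_extSec h4 hw x⟩) (extIncl h4 hw) (extProj_extIncl h4 hw) (extIncl_central h4 hw)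
    (extIncl_injective h4 hw) (exists_extIncl h4 hw)
  have hc : ∀ {g g' a b a' b' : ℕ} (hg : detC g = 1) (hg' : detC g' = 1), a < 4 → b < 4 → a' < 4 → b' < 4 →
      g = umat a b 0 → g' = umat a' b' 0 → mulC a' b = mulC a b' →
      el h4 hw g hg * el h4 hw g' hg' = el h4 hw g' hg' * el h4 hw g hg := by
    intro g g' a b a' b' hg hg' ha hb ha' hb' e e' hm
    rw [el_uEl h4 hw hg ha hb (by norm_num) e, el_uEl h4 hw hg' ha' hb' (by norm_num) e', uEl_mul h4, uEl_mul h4,
      ← ev_mul h4 hw ha' hb, ← ev_mul h4 hw ha hb', hm, add_comm (ev w a), add_comm (ev w b)]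
  obtain ⟨A, B, T, hAB, hT⟩ := pair_total h4 hw (g := 66837) (g' := 67897) (by decide) (by decide) x1_ok y1_ok pair1_ok
    (hc (a := 1) (b := 1) (a' := 2) (b' := 2) _ _ (by decide) (by decide) (by decide) (by decide) (by decide)
      (by decide) (by decide))
  obtain ⟨A', B', T', hAB', hT'⟩ := pair_total h4 hw (g := 67877) (g' := 68889) (by decide) (by decide) x2_ok y2_ok pair2_ok
    (hc (a := 1) (b := 2) (a' := 2) (b' := 3) _ _ (by decide) (by decide) (by decide) (by decide) (by decide)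
      (by decide) (by decide))
  have h1 := hcom A B T hAB
  have h2 := hcom A' B' T' hAB'
  rw [hT] at h1
  rw [hT'] at h2
  have hrange : inc.range ≤ φ.ker ⊓ commutator Γ₀ := by
    rintro _ ⟨x, rfl⟩
    obtain ⟨i, j, hij⟩ := gen_pair x.toAdd.down
    rw [show x = Multiplicative.ofAdd ⟨((3, 2) : R)⟩ ^ i.val * Multiplicative.ofAdd ⟨((3, 1) : R)⟩ ^ j.val from
      Multiplicative.toAdd.injective (ULift.ext _ _ hij), map_mul, map_pow, map_pow]
    exact mul_mem (pow_mem h1 _) (pow_mem h2 _)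
  obtain ⟨Γ, iG, iF, σ, hσ, ⟨e⟩⟩ := exists_stem φ hφs hφc
  refine ⟨Γ, iG, iF, σ, hσ, ?_⟩
  rw [Nat.card_congr e.toEquiv]
  have hd := Subgroup.card_dvd_of_le hrange
  rw [Nat.card_congr (MonoidHom.ofInjective hinj).toEquiv.symm, Nat.card_congr Multiplicative.toAdd,
    Nat.card_congr Equiv.ulift, Nat.card_prod, Nat.card_zmod] at hd
  exact hd

end CfsgLib.L34
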