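import Cfsg.Agent.L34.Bound
import Cfsg.Agent.L34.Cover
import Cfsg.Agent.SchurSylow.Bound
import Cfsg.Agent.S3951
import Cfsg.Agent.S3979

set_option autoImplicit false

/-!
The Schur multiplier of `PSL₃(4)`.
-/

namespace CfsgLib.L34

open Matrix Matrix.SpecialLinearGroup CfsgLib.Schur CfsgLib.SchurSylow

universe u v

theorem equiv_of_card_sq {Q : Type*} [Group Q] [Finite Q] {p : ℕ} [hp : Fact p.Prime]
    (hQ : Nat.card Q = p ^ 2) (hc : ¬ IsCyclic Q) : Nonempty (Q ≃* Multiplicative (ZMod p × ZMod p)) := by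
  classical
  haveI : NeZero p := ⟨hp.out.ne_zero⟩
  letI : CommGroup Q := { (inferInstance : Group Q) with mul_comm := IsPGroup.commutative_of_card_eq_prime_sq hQ }
  have hexp : ∀ x : Q, x ^ p = 1 := fun x => by
    obtain ⟨k, hk, e⟩ := (Nat.dvd_prime_pow hp.out).1 (hQ ▸ orderOf_dvd_natCard x)
    rcases Nat.lt_or_ge k 2 with h | h
    · refine orderOf_dvd_iff_pow_eq_one.1 (e.symm ▸ ?_)
      exact (pow_dvd_pow p (show k ≤ 1 by omega)).trans (pow_one p).dvd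
    · exact absurd (isCyclic_of_orderOf_eq_card x (by rw [e, hQ, show k = 2 by omega])) hc
  obtain ⟨a, ha⟩ : ∃ a : Q, a ≠ 1 := by
    by_contra hcon
    push Not at hcon
    have h1 : Subsingleton Q := ⟨fun x y => (hcon x).trans (hcon y).symm⟩
    exact hc inferInstance
  obtain ⟨b, hb⟩ : ∃ b : Q, b ∉ Subgroup.zpowers a := by
    by_contra hcon
    push Not at hcon
    exact hc ⟨⟨a, hcon⟩⟩
  let f : Multiplicative (ZMod p × ZMod p) →* Q :=
    MonoidHom.mk' (fun v => a ^ v.toAdd.1.val * b ^ v.toAdd.2.val) fun u v => by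
      simp only [toAdd_mul, Prod.fst_add, Prod.snd_add, ZMod.val_add]
      rw [← pow_eq_pow_mod _ (hexp a), ← pow_eq_pow_mod _ (hexp b), pow_add, pow_add]
      exact mul_mul_mul_comm _ _ _ _
  have hcast : ∀ (x : Q) (n : ℕ), x ^ ((n : ZMod p)).val = x ^ n := fun x n => by
    rw [ZMod.val_natCast, ← pow_eq_pow_mod _ (hexp x)]
  haveI : Fact (1 < p) := ⟨hp.out.one_lt⟩
  have ha' : a ∈ f.range := ⟨Multiplicative.ofAdd ((1 : ℕ), (0 : ℕ)), by simp [f, hcast, ZMod.val_one]⟩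
  have hb' : b ∈ f.range := ⟨Multiplicative.ofAdd ((0 : ℕ), (1 : ℕ)), by simp [f, hcast, ZMod.val_one]⟩
  have hsurj : f.range = ⊤ := by
    obtain ⟨k, hk, e⟩ := (Nat.dvd_prime_pow hp.out).1 (hQ ▸ Subgroup.card_subgroup_dvd_card f.range)
    refine Subgroup.eq_top_of_card_eq _ (e.trans (hQ.symm ▸ ?_))
    suffices k = 2 by rw [this]
    by_contra hne
    have hle : Subgroup.zpowers a ≤ f.range := Subgroup.zpowers_le.2 ha'
    have hoa : orderOf a = p := orderOf_eq_prime (hexp a) ha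
    have heq : Subgroup.zpowers a = f.range := Subgroup.eq_of_le_of_card_ge hle (by
      rw [e, Nat.card_zpowers, hoa]
      exact (Nat.pow_le_pow_right hp.out.pos (show k ≤ 1 by omega)).trans (pow_one p).le)
    exact hb (heq.symm ▸ hb')
  refine ⟨(MulEquiv.ofBijective f ?_).symm⟩
  refine (MonoidHom.range_eq_top.1 hsurj).bijective_of_nat_card_le ?_
  rw [hQ, Nat.card_congr Multiplicative.toAdd, Nat.card_prod, Nat.card_zmod, pow_two]

theorem sylow_mult {Q : Type u} [Group Q] [Finite Q] {p k : ℕ} [hp : Fact p.Prime] (hQ : Nat.card Q = p ^ k)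
    (hk : k ≤ 2) : ∃ (H : Type u) (_ : Group H) (n : ℕ), Nonempty (Q ≃* H) ∧
      Cfsg.HasCyclicSchurMultiplier H n ∧ n ∣ p ^ (k / 2) := by
  by_cases hc : IsCyclic Q
  · exact ⟨Q, inferInstance, 1, ⟨MulEquiv.refl _⟩, Cfsg.Agent.S3979.result, one_dvd _⟩
  have hk2 : k = 2 := by
    by_contra hne
    apply hc
    rcases Nat.le_one_iff_eq_zero_or_eq_one.1 (show k ≤ 1 by omega) with rfl | rfl
    · have : Subsingleton Q := (Nat.card_eq_one_iff_unique.1 (hQ.trans (pow_zero p))).1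
      infer_instance
    · exact isCyclic_of_prime_card (hQ.trans (pow_one p))
  subst hk2
  obtain ⟨e⟩ := equiv_of_card_sq hQ hc
  haveI : NeZero p := ⟨hp.out.ne_zero⟩
  refine ⟨ULift.{u} (Multiplicative (ZMod p × ZMod p)), inferInstance, p, ⟨e.trans MulEquiv.ulift.symm⟩, ?_, by norm_num⟩
  obtain ⟨⟨Γ, iG, iF, σ, hσ, ⟨eA⟩⟩, hmax⟩ := Cfsg.Agent.S3951.result p p dvd_rfl
  refine ⟨?_, fun Δ _ _ τ hτ => ?_⟩
  · let σ' : Γ →* ULift.{u} (Multiplicative (ZMod p × ZMod p)) := MulEquiv.ulift.symm.toMonoidHom.comp σ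
    have hk : σ'.ker = σ.ker := by ext x; simp [σ', MonoidHom.mem_ker]
    have hσ' : Cfsg.IsStemExtension σ' :=
      ⟨MulEquiv.ulift.symm.surjective.comp hσ.1, hk ▸ hσ.2.1, hk ▸ hσ.2.2⟩
    exact exists_stem_model hσ' ((MulEquiv.subgroupCongr hk).trans eA)
  · let τ' : Δ →* Multiplicative (ZMod p × ZMod p) := MulEquiv.ulift.toMonoidHom.comp τ
    have hk : τ'.ker = τ.ker := by ext x; simp [τ', MonoidHom.mem_ker]
    obtain ⟨π, hπ⟩ := exists_surj ⟨⟨Γ, iG, iF, σ, hσ, ⟨eA⟩⟩, hmax⟩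
      (σ := τ') ⟨MulEquiv.ulift.surjective.comp hτ.1, hk ▸ hτ.2.1, hk ▸ hτ.2.2⟩
    exact ⟨(MulEquiv.subgroupCongr hk).toMonoidHom.comp π, (MulEquiv.subgroupCongr hk).surjective.comp hπ⟩

variable {F : Type u} [Field F] [Fintype F] (h4 : Fintype.card F = 4)
include h4

theorem odd_part_dvd {Γ : Type v} [Group Γ] [Finite Γ] {σ : Γ →* P3 F} (hσ : Cfsg.IsStemExtension σ)
    {p : ℕ} [hp : Fact p.Prime] (hp2 : p ≠ 2) {k : ℕ} (hk : p ^ k ∣ Nat.card σ.ker) : p ^ k ∣ 3 := by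
  haveI : Finite (P3 F) := inferInstance
  obtain ⟨Q⟩ : Nonempty (Sylow p (P3 F)) := inferInstance
  obtain ⟨j, hj⟩ := IsPGroup.iff_card.1 Q.isPGroup'
  have hd : p ^ j ∣ 20160 := card_P3 h4 ▸ hj ▸ Subgroup.card_subgroup_dvd_card _
  have hcop : Nat.Coprime (p ^ j) 64 := by
    refine Nat.Coprime.pow_left j ?_
    exact (Nat.coprime_primes hp.out Nat.prime_two).2 hp2 |>.pow_right 6
  have h315 : p ^ j ∣ 315 := hcop.dvd_of_dvd_mul_left (show p ^ j ∣ 64 * 315 from hd)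
  have hj2 : j ≤ 2 := by
    by_contra hj3
    have h2 : p ^ 3 ∣ 315 := (pow_dvd_pow p (by omega)).trans h315
    have h3 := Nat.le_of_dvd (by norm_num) h2
    have h4' : p ≤ 6 := by
      by_contra h6
      have := Nat.pow_le_pow_left (show 7 ≤ p by omega) 3
      omega
    have := hp.out.two_le
    interval_cases p <;> norm_num at h2
  obtain ⟨H, _, n, ⟨e⟩, hH, hn⟩ := sylow_mult hj hj2
  have h := pow_dvd_card hσ Q e hH hk
  rw [Nat.card_congr Multiplicative.toAdd, Nat.card_zmod] at h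
  refine h.trans (hn.trans ?_)
  rcases Nat.lt_or_ge j 2 with hj' | hj'
  · rw [show j / 2 = 0 by omega, pow_zero]; exact one_dvd _
  · have hj'' : j = 2 := by omega
    subst hj''
    have : p = 3 := by
      have h3 := Nat.le_of_dvd (by norm_num) h315
      have h5 : p ≤ 17 := by nlinarith
      have := hp.out.two_le
      interval_cases p <;> first | rfl | norm_num at h315
    subst this; norm_num

theorem stem_bound {Γ : Type v} [Group Γ] [Finite Γ] (σ : Γ →* P3 F) (hσ : Cfsg.IsStemExtension σ) :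
    ∃ π : Multiplicative (ZMod 3 × ZMod 4 × ZMod 4) →* σ.ker, Function.Surjective π := by
  classical
  obtain ⟨hs, hcz, hst⟩ := hσ
  obtain ⟨L, hL⟩ := hs.hasRightInverse
  obtain ⟨w, hw⟩ := exists_gen h4
  have hw0 : w ≠ 0 := fun e => by rw [e] at hw; simp at hw
  have c : Data σ L (Units.mk0 w hw0) := ⟨hL, hcz, h4, hw⟩
  letI : CommGroup σ.ker :=
    { (inferInstance : Group σ.ker) with
      mul_comm := fun a b => Subtype.ext (Subgroup.mem_center_iff.1 (hcz b.2) (a : Γ)) }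
  set N := Nat.card σ.ker
  set m := N / 2 ^ N.factorization 2 with hm
  have hN : 2 ^ N.factorization 2 * m = N := Nat.ordProj_mul_ordCompl_eq_self N 2
  have hm2 : ¬ 2 ∣ m := Nat.not_dvd_ordCompl Nat.prime_two Nat.card_pos.ne'
  have hm3 : m ∣ 3 := (Nat.dvd_iff_prime_pow_dvd_dvd 3 m).2 fun p k hp hk => by
    rcases eq_or_ne k 0 with rfl | hk0
    · exact (pow_zero p).symm ▸ one_dvd _
    haveI := Fact.mk hp
    have hp2 : p ≠ 2 := fun e => hm2 (e ▸ (dvd_pow_self p hk0).trans hk)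
    exact odd_part_dvd h4 ⟨hs, hcz, hst⟩ hp2 (hk.trans ⟨_, by rw [mul_comm]; exact hN.symm⟩)
  -- the 2-part
  have h2mem : ∀ x : σ.ker, x ^ 2 ^ N.factorization 2 = 1 → (x : Γ) ∈ gen2 L (Units.mk0 w hw0) := by
    intro x hx
    refine c.ker_inf_le ⟨x.2, ?_⟩
    set E : Subgroup Γ := (Usub h4).comap σ
    have hxE : (x : Γ) ∈ E := by
      change σ x ∈ Usub h4
      rw [MonoidHom.mem_ker.1 x.2]; exact one_mem _
    let f : E →* Abelianization E := Abelianization.of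
    have hcen : ∀ g, g * (x : Γ) = x * g := fun g => Subgroup.mem_center_iff.1 (hcz x.2) g
    have h2 : MonoidHom.transfer f (x : Γ) = 1 :=
      Abelianization.commutator_subset_ker (MonoidHom.transfer f) (hst x.2)
    rw [MonoidHom.transfer_eq_pow f (x : Γ) fun j g _ => by
      rw [mul_assoc, ← (Commute.pow_right (hcen g) j).eq, inv_mul_cancel_left]] at h2
    have h3 : (⟨x, hxE⟩ : E) ^ E.index ∈ commutator E := by
      rw [← Abelianization.ker_of, MonoidHom.mem_ker]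
      exact (congrArg f (Subtype.ext (by rw [Subgroup.coe_pow]))).trans h2
    have hcop : Nat.Coprime E.index (orderOf (⟨x, hxE⟩ : E)) := by
      rw [Subgroup.orderOf_mk, Subgroup.orderOf_coe]
      refine Nat.Coprime.coprime_dvd_right (orderOf_dvd_of_pow_eq_one hx) (Nat.Coprime.pow_right _ ?_)
      rw [Subgroup.index_comap_of_surjective _ hs, index_Usub h4]
      norm_num
    obtain ⟨j, hj⟩ := exists_pow_eq_self_of_coprime hcop
    rw [← Subgroup.map_subtype_commutator]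
    exact ⟨⟨x, hxE⟩, hj ▸ pow_mem h3 j, rfl⟩
  -- generators
  let k₁ : σ.ker := ⟨kk L (Units.mk0 w hw0) 1 1, c.kk_ker 1 1⟩
  let k₂ : σ.ker := ⟨kk L (Units.mk0 w hw0) 1 w, c.kk_ker 1 w⟩
  have hk₁ : k₁ ^ 4 = 1 := Subtype.ext (c.kk_four 1 1)
  have hk₂ : k₂ ^ 4 = 1 := Subtype.ext (c.kk_four 1 w)
  obtain ⟨e₀, he₀, hgen⟩ : ∃ e₀ : σ.ker, e₀ ^ 3 = 1 ∧ ∀ x : σ.ker, x ^ m = 1 → x ∈ Subgroup.zpowers e₀ := by
    rcases (Nat.dvd_prime Nat.prime_three).1 hm3 with h1 | h1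
    · exact ⟨1, one_pow _, fun x hx => by rw [h1, pow_one] at hx; rw [hx]; exact one_mem _⟩
    · haveI := Fact.mk Nat.prime_three
      obtain ⟨e₀, he₀⟩ := exists_prime_orderOf_dvd_card' (G := σ.ker) 3 (show 3 ∣ N from hN ▸ h1 ▸ dvd_mul_left _ _)
      have hpow : e₀ ^ 3 = 1 := orderOf_dvd_iff_pow_eq_one.1 (dvd_of_eq he₀)
      refine ⟨e₀, hpow, fun x hx => ?_⟩
      rw [h1] at hx
      have hsub : Subgroup.zpowers e₀ ≤ (powMonoidHom 3 : σ.ker →* σ.ker).ker :=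
        Subgroup.zpowers_le.2 (show e₀ ^ 3 = 1 from hpow)
      have hle : Nat.card (powMonoidHom 3 : σ.ker →* σ.ker).ker ≤ 3 := by
        obtain ⟨j, hj⟩ := IsPGroup.iff_card.1 (show IsPGroup 3 (powMonoidHom 3 : σ.ker →* σ.ker).ker from
          fun y => ⟨1, Subtype.ext (by rw [pow_one]; exact y.2)⟩)
        rw [hj]
        refine Nat.le_of_dvd (by norm_num) (odd_part_dvd h4 ⟨hs, hcz, hst⟩ (by decide) ?_)
        exact hj ▸ Subgroup.card_subgroup_dvd_card _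
      have heq := Subgroup.eq_of_le_of_card_ge hsub (by rw [Nat.card_zpowers, he₀]; exact hle)
      exact heq.symm ▸ (show x ∈ (powMonoidHom 3 : σ.ker →* σ.ker).ker from hx)
  let π : Multiplicative (ZMod 3 × ZMod 4 × ZMod 4) →* σ.ker :=
    MonoidHom.mk' (fun v => e₀ ^ v.toAdd.1.val * (k₁ ^ v.toAdd.2.1.val * k₂ ^ v.toAdd.2.2.val)) fun u v => by
      simp only [toAdd_mul, Prod.fst_add, Prod.snd_add, ZMod.val_add]
      rw [← pow_eq_pow_mod _ he₀, ← pow_eq_pow_mod _ hk₁, ← pow_eq_pow_mod _ hk₂, pow_add, pow_add, pow_add]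
      rw [mul_mul_mul_comm (k₁ ^ _) (k₁ ^ _), mul_mul_mul_comm]
  have hcast : ∀ (x : σ.ker) (n : ℕ) [NeZero n] (k : ℕ), x ^ n = 1 → x ^ ((k : ZMod n)).val = x ^ k :=
    fun x n _ k hx => by rw [ZMod.val_natCast, ← pow_eq_pow_mod _ hx]
  have m0 : e₀ ∈ π.range := ⟨Multiplicative.ofAdd ((1 : ℕ), (0 : ℕ), (0 : ℕ)), by
    simp only [π, MonoidHom.mk'_apply, toAdd_ofAdd, hcast _ _ _ he₀, hcast _ _ _ hk₁, hcast _ _ _ hk₂]
    simp⟩
  have m1 : k₁ ∈ π.range := ⟨Multiplicative.ofAdd ((0 : ℕ), (1 : ℕ), (0 : ℕ)), by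
    simp only [π, MonoidHom.mk'_apply, toAdd_ofAdd, hcast _ _ _ he₀, hcast _ _ _ hk₁, hcast _ _ _ hk₂]
    simp⟩
  have m2 : k₂ ∈ π.range := ⟨Multiplicative.ofAdd ((0 : ℕ), (0 : ℕ), (1 : ℕ)), by
    simp only [π, MonoidHom.mk'_apply, toAdd_ofAdd, hcast _ _ _ he₀, hcast _ _ _ hk₁, hcast _ _ _ hk₂]
    simp⟩
  have hgen2 : ∀ x : σ.ker, (x : Γ) ∈ gen2 L (Units.mk0 w hw0) → x ∈ π.range := by
    intro x hx
    have h1 : gen2 L (Units.mk0 w hw0) ≤ π.range.map σ.ker.subtype := by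
      rw [gen2, Subgroup.closure_le]
      rintro _ (rfl | rfl)
      exacts [⟨k₁, m1, rfl⟩, ⟨k₂, m2, rfl⟩]
    obtain ⟨y, hy, e⟩ := h1 hx
    exact Subtype.coe_injective e ▸ hy
  refine ⟨π, MonoidHom.range_eq_top.1 (eq_top_iff.2 fun x _ => ?_)⟩
  set t := 2 ^ N.factorization 2
  have hco : Nat.Coprime t m := Nat.Coprime.pow_left _ ((Nat.prime_two.coprime_iff_not_dvd).2 hm2)
  have hA : x ^ t ∈ π.range := by
    have : (x ^ t) ^ m = 1 := by rw [← pow_mul, hN]; exact pow_card_eq_one'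
    exact Subgroup.zpowers_le.2 m0 (hgen _ this)
  have hB : x ^ m ∈ π.range := hgen2 _ (h2mem _ (by rw [← pow_mul, mul_comm, hN]; exact pow_card_eq_one'))
  have hg : x ^ (Int.gcdA t m * t + Int.gcdB t m * m) = x := by
    have := Int.gcd_eq_gcd_ab (t : ℤ) (m : ℤ)
    rw [Int.gcd_natCast_natCast, hco.gcd_eq_one, Nat.cast_one] at this
    rw [mul_comm (Int.gcdA (t : ℤ) m), mul_comm (Int.gcdB (t : ℤ) m), ← this, zpow_one]
  rw [← hg, _root_.zpow_add, mul_comm (Int.gcdA (t : ℤ) m), mul_comm (Int.gcdB (t : ℤ) m), _root_.zpow_mul, _root_.zpow_mul,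
    zpow_natCast, zpow_natCast]
  exact mul_mem (zpow_mem hA _) (zpow_mem hB _)

theorem multiplier : Cfsg.HasSchurMultiplier (P3 F) (Multiplicative (ZMod 3 × ZMod 4 × ZMod 4)) := by
  classical
  refine ⟨?_, fun Γ _ _ σ hσ => stem_bound h4 σ hσ⟩
  obtain ⟨w, hw⟩ := exists_gen h4
  obtain ⟨X, _, _, f, hf, hf'⟩ := exists_two_cover h4 hw
  let g : SpecialLinearGroup (Fin 3) F →* P3 F := QuotientGroup.mk' _
  have hgk : g.ker = Subgroup.center _ := QuotientGroup.ker_mk' _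
  have hg : Cfsg.IsStemExtension g := by
    refine ⟨QuotientGroup.mk'_surjective _, hgk.le, ?_⟩
    rw [CfsgLib.SLn.commutator_eq_top (Or.inl (by simp))]
    exact le_top
  have hg' : Nat.card g.ker = 3 := by rw [hgk, CfsgLib.SLn.card_center_SL F 3 (by norm_num), h4]; rfl
  let φ : pullback f g →* P3 F := f.comp (pfst f g)
  obtain ⟨Γ, iG, iF, σ, hσ, ⟨e⟩⟩ :=
    exists_stem φ (hf.1.comp (pfst_surjective hg.1)) (base_ker_le_center hf.2.1 hg.2.1)
  set K := φ.ker ⊓ commutator (pullback f g)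
  let j : K →* f.ker × g.ker :=
    MonoidHom.prod (((pfst f g).comp K.subtype).codRestrict f.ker fun z => z.2.1)
      (((psnd f g).comp K.subtype).codRestrict g.ker fun z => (z.1.2 : f _ = g _).symm.trans z.2.1)
  have d1 : Nat.card f.ker ∣ Nat.card K := by
    refine Subgroup.card_dvd_of_surjective ((MonoidHom.fst _ _).comp j) fun t => ?_
    obtain ⟨z, hz, hz1⟩ := exists_mem_commutator_lift (pfst f g) (pfst_surjective hg.1) (hf.2.2 t.2)
    exact ⟨⟨z, (congrArg f hz1).trans t.2, hz⟩, Subtype.ext hz1⟩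
  have d2 : Nat.card g.ker ∣ Nat.card K := by
    refine Subgroup.card_dvd_of_surjective ((MonoidHom.snd _ _).comp j) fun t => ?_
    obtain ⟨z, hz, hz1⟩ := exists_mem_commutator_lift (psnd f g) (psnd_surjective hf.1) (hg.2.2 t.2)
    exact ⟨⟨z, ((z.2 : f _ = g _).trans (congrArg g hz1)).trans t.2, hz⟩, Subtype.ext hz1⟩
  have hd : 16 * 3 ∣ Nat.card σ.ker := by
    rw [Nat.card_congr e.toEquiv]
    exact Nat.Coprime.mul_dvd_of_dvd_of_dvd (by norm_num) (hf'.trans d1) ((dvd_of_eq hg'.symm).trans d2)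
  obtain ⟨π, hπ⟩ := stem_bound h4 σ hσ
  refine ⟨Γ, iG, iF, σ, hσ, ⟨(MulEquiv.ofBijective π (hπ.bijective_of_nat_card_le ?_)).symm⟩⟩
  refine le_trans (le_of_eq ?_) (Nat.le_of_dvd Nat.card_pos hd)
  simp

end CfsgLib.L34
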